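import Cfsg.Agent.H8.WClosed

/-!
If `ZJ(S)` is not strongly closed then one of its subgroups of order `p` has full automizer.
-/

set_option autoImplicit false
set_option linter.unusedSectionVars false

namespace Cfsg.H8

open Subgroup Cfsg.L0 Matrix
open scoped commutatorElement MatrixGroups

universe u

variable {G : Type u} [Group G] [Finite G] {p e : ℕ} [hp : Fact p.Prime]

omit hp in
theorem exists_eigen {Z W : Subgroup G} (hZ : Z ≤ centralizer (Z : Set G)) {h z : G} {a : ℕ}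
    (h1 : h ∈ normalizer (Z : Set G)) (h2 : h ∈ normalizer (W : Set G)) (hz : z ∈ Z) (hn : z ∉ W)
    (h3 : h * z * h⁻¹ * (z ^ a)⁻¹ ∈ W) : ∃ y ∈ Z, y ≠ 1 ∧ h * y * h⁻¹ = y ^ a := by
  by_contra! h4
  have inj : ∀ y ∈ Z, ∀ y' ∈ Z, h * y * h⁻¹ * (y ^ a)⁻¹ = h * y' * h⁻¹ * (y' ^ a)⁻¹ → y = y' := by
    intro y hy y' hy' e
    by_contra h5
    refine h4 (y⁻¹ * y') (Z.mul_mem (Z.inv_mem hy) hy') (fun e => h5 (inv_mul_eq_one.1 e)) ?_
    rw [Commute.mul_pow (hZ hy' _ (Z.inv_mem hy)), inv_pow]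
    calc h * (y⁻¹ * y') * h⁻¹ = (h * y * h⁻¹)⁻¹ * (h * y' * h⁻¹ * (y' ^ a)⁻¹) * y' ^ a := by group
      _ = _ := by rw [← e]; group
  let φ : ↥(Z ⊓ W) → ↥(Z ⊓ W) := fun y => ⟨h * y * h⁻¹ * ((y : G) ^ a)⁻¹, mul_mem (conj_mem_of_mem_normalizer
    (le_normalizer_inf (zpowers_le.2 h1) (zpowers_le.2 h2) (mem_zpowers h)) y.2) (inv_mem (pow_mem y.2 a))⟩
  have hφ : Function.Surjective φ := Finite.surjective_of_injective fun y y' e =>
    Subtype.ext (inj _ y.2.1 _ y'.2.1 (congrArg Subtype.val e))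
  obtain ⟨y, hy⟩ := hφ ⟨_, Z.mul_mem (conj_mem_of_mem_normalizer h1 hz) (Z.inv_mem (Z.pow_mem hz a)), h3⟩
  exact hn (inj _ y.2.1 _ hz (congrArg Subtype.val hy) ▸ y.2.2)

theorem eigen_of_lConf (hp2 : p ≠ 2) {T K M X L Z E Y : Subgroup G} {g : G}
    (hL : LConf p T K M (zpowers g) X L) (hT : IsPGroup p T) (hZ : Z ≤ centralizer (Z : Set G))
    (hMZ : M ≤ normalizer (Z : Set G)) (hEZ : E ≤ Z) (hYE : Y ≤ E) (hLY : L ≤ normalizer (Y : Set G))
    (hTE : ⁅E, T⁆ ≤ Y) (hB : IsPGroup p (ncl L E)) (hBB : ⁅ncl L E, ncl L E⁆ ≤ Y)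
    (hq : ⁅⁅ncl L E, zpowers g⁆, zpowers g⁆ ≤ Y) (hne : ¬ L ≤ normalizer (E : Set G)) {a : ℕ}
    (ha : a.Coprime p) : ∃ z ∈ Z, z ≠ 1 ∧ ∃ h ∈ M, h * z * h⁻¹ = z ^ a := by
  set B := ncl L E with hBd
  have hLB : L ≤ normalizer (B : Set G) := le_normalizer_ncl _ _
  have hEB : E ≤ B := le_ncl _ _
  have key : ∀ W, Y ≤ W → W ≤ B → L ≤ normalizer (W : Set G) → ⁅E, L⁆ ≤ W → ⁅B, L⁆ ≤ W := by
    intro W h1 h2 h3 h4
    rw [Subgroup.commutator_comm] at h4 ⊢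
    exact (H7.le_stab_iff.1 (ncl_le (H7.le_stab_iff.2 ⟨hEB.trans (H7.le_normalizer_of_commutator_le h2
      (hBB.trans h1)), h4⟩) (H7.le_normalizer_stab le_normalizer h3))).2
  obtain ⟨W2, ⟨a1, a2, a3, a4⟩, hmax⟩ := exists_max_card (P := fun W => Y ≤ W ∧ W ≤ B ∧
      L ≤ normalizer (W : Set G) ∧ ¬ ⁅B, L⁆ ≤ W)
    ⟨Y, le_rfl, hYE.trans hEB, hLY, fun h => hne (H7.le_normalizer_of_commutator_le hEB (h.trans hYE))⟩
  set W1 := W2 ⊔ ⁅B, L⁆ with hW1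
  have b1 : W1 ≤ B := sup_le a2 (H7.commutator_le_left_of_le_normalizer hLB)
  have b2 : L ≤ normalizer (W1 : Set G) := le_normalizer_sup a3 (le_normalizer_commutator hLB le_normalizer)
  have b3 : ∀ l ∈ L, ∀ x ∈ E, ⁅l, x⁆ ∈ W1 := fun l hl x hx =>
    mem_sup_right (H7.commutator_mem_commutator' (hEB hx) hl)
  have hBW : B ≤ normalizer (W2 : Set G) := H7.le_normalizer_of_commutator_le a2 (hBB.trans a1)
  have b4 : ¬ ⁅E, L⁆ ≤ W2 := fun h => a4 (key W2 a1 a2 a3 h)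
  obtain ⟨F, _, _, _, C, c1, c2, c3⟩ := hL.exists_coord hp2 hT (hB.to_le b1) le_sup_left b2 a3
    ((commutator_mono b1 b1).trans (hBB.trans a1)) (fun W h1 h2 h3 => by
      by_cases h4 : ⁅B, L⁆ ≤ W
      · exact Or.inr (le_antisymm h2 (sup_le h1 h4))
      · exact Or.inl (eq_of_le_of_card_ge h1 (hmax W ⟨a1.trans h1, h2.trans b1, h3, h4⟩)).symm)
    (fun h => by
      obtain ⟨t, ht, h1⟩ := SetLike.not_le_iff_exists.1 hL.not_le
      have h2 : X ⊔ zpowers g ≤ H7.stab E W2 := H7.le_stab_iff.2 ⟨hL.leL.trans a3,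
        (commutator_mono le_rfl hL.leP).trans (hTE.trans a1)⟩
      have hg : g ∈ L := hL.leL (mem_sup_right (mem_zpowers g))
      refine b4 (H7.le_stab_iff.1 ((hL.gen t ht h1).trans (sup_le h2 ?_))).2
      rw [cj_zpowers, zpowers_le, H7.mem_stab]
      refine ⟨a3 (L.mul_mem (L.mul_mem ht hg) (L.inv_mem ht)), fun x hx => ?_⟩
      have h3 := b3 _ (L.inv_mem ht) x hx
      have h4 : ⁅x, t * g * t⁻¹⁆ = t * (⁅t⁻¹, x⁆ * ⁅x, g⁆ * ⁅t⁻¹, x⁆⁻¹ * ⁅g, ⁅t⁻¹, x⁆⁆⁻¹) * t⁻¹ := by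
        simp only [commutatorElement_def]; group
      rw [h4]
      exact conj_mem_of_mem_normalizer (a3 ht) (W2.mul_mem (conj_mem_of_mem_normalizer (hBW (b1 h3))
        ((H7.mem_stab.1 (h2 (mem_sup_right (mem_zpowers g)))).2 x hx)) (W2.inv_mem ((h hg).2.2 _ h3))))
    ((commutator_mono (commutator_mono b1 le_rfl) le_rfl).trans (hq.trans a1))
  have hM : ∀ N ∈ upper (ZMod p), ∃ x ∈ L, x ∈ M ∧ C.Rel x (slp p F N) := fun N hN => by
    obtain ⟨x, hx, h1⟩ := c1 N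
    exact ⟨x, hx, c2 ⟨hx, _, slp_mem_upper hN, h1⟩, h1⟩
  obtain ⟨z0, hz0, h0⟩ : ∃ z ∈ Z ⊓ W1, z ∉ W2 := by
    by_contra! h
    have h1 : ∀ m ∈ L, m ∈ M → ∀ x ∈ E, C.π ⁅m, x⁆ = 0 := fun m h1 h2 x hx =>
      (C.eq_zero _ (b3 m h1 x hx)).2 (h _ ⟨commutatorElement_mem_of_normalizer (hMZ h2) (hEZ hx), b3 m h1 x hx⟩)
    have h2 : ∀ a ∈ L, ∀ b ∈ L, ∀ A, C.Rel a A → ∀ x ∈ E,
        C.π ⁅a * b, x⁆ = A.1 *ᵥ C.π ⁅b, x⁆ + C.π ⁅a, x⁆ := fun a ha b hb A hA x hx => by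
      rw [← hA.2 _ (b3 b hb x hx), ← C.map_mul _ (conj_mem_of_mem_normalizer (b2 ha) (b3 b hb x hx)) _
        (b3 a ha x hx)]
      congr 1
      simp only [commutatorElement_def]; group
    obtain ⟨t, ht, h3, h4⟩ := hM _ (neg_one_mem_upper _)
    rw [slp_neg_one] at h4
    refine b4 (commutator_le.2 fun x hx l hl => ?_)
    rw [← commutatorElement_inv, W2.inv_mem_iff, ← C.eq_zero _ (b3 l hl x hx)]
    obtain ⟨-, N, -, h5⟩ := c3 hl
    have h6 := ((h4.mul h5).mul h4.inv).mul h5.inv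
    have h7 : t * l * t⁻¹ * l⁻¹ ∈ L := L.mul_mem (L.mul_mem (L.mul_mem ht hl) (L.inv_mem ht)) (L.inv_mem hl)
    rw [show -1 * N * (-1)⁻¹ * N⁻¹ = 1 by simp] at h6
    have h8 := h2 _ h7 _ (L.mul_mem hl ht) _ h6 x hx
    rw [h1 _ h7 (c2 ⟨h7, _, one_mem _, h6⟩) x hx, h2 _ hl _ ht _ h5 x hx, h1 t ht h3 x hx,
      show t * l * t⁻¹ * l⁻¹ * (l * t) = t * l by group, h2 _ ht _ hl _ h4 x hx, h1 t ht h3 x hx] at h8
    have h9 : (2 : F) • C.π ⁅l, x⁆ = 0 := by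
      rw [two_smul]
      simpa [Matrix.neg_mulVec, neg_eq_iff_add_eq_zero] using h8
    exact (smul_eq_zero.1 h9).resolve_left (two_ne_zero_of_charP hp2 F)
  obtain ⟨z, hz, h1, h2⟩ : ∃ z ∈ Z ⊓ W1, z ∉ W2 ∧ C.π z 1 = 0 := by
    by_cases h1 : C.π z0 1 = 0
    · exact ⟨z0, hz0, h0, h1⟩
    obtain ⟨u, hu, h2, h3⟩ := hM _ (U_mem_upper 1)
    have h4 := commutatorElement_mem_of_normalizer h3.1 hz0.2
    have h5 := C.map_commutator h3.1 hz0.2
    rw [h3.2 _ hz0.2] at h5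
    refine ⟨⁅u, z0⁆, ⟨commutatorElement_mem_of_normalizer (hMZ h2) hz0.1, h4⟩, fun h6 => h1 ?_, ?_⟩
    · have := congrFun ((C.eq_zero _ h4).2 h6) 0
      simpa [h5, slp, H3.U_coe, mulVec, dotProduct] using this
    · simp [h5, slp, H3.U_coe]
  obtain ⟨h, hh, h3, h4⟩ := hM _ (dg_mem_upper (ZMod.unitOfCoprime a ha))
  obtain ⟨y, h5, h6, h7⟩ := exists_eigen hZ (hMZ h3) (a3 hh) hz.1 h1 (a := a) (by
    have h5 := conj_mem_of_mem_normalizer h4.1 hz.2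
    have h6 := W1.pow_mem hz.2 a
    rw [← C.eq_zero _ (W1.mul_mem h5 (W1.inv_mem h6)), C.map_mul _ h5 _ (W1.inv_mem h6), C.map_inv h6,
      C.map_pow hz.2, h4.2 _ hz.2]
    ext i
    fin_cases i <;> simp [slp, dg_coe, h2])
  exact ⟨y, h5, h6, h, h3, h7⟩

theorem exists_quad_of_JT (hp2 : p ≠ 2) {K T Q E : Subgroup G} (hT : IsPGroup p T) (hTK : T ≤ K)
    (hQ : Q ≤ T) (hKQ : K ≤ normalizer (Q : Set G)) (hE : E ≤ ZJ e T) (hV : ncl K E ≤ Q)
    (h1 : ⁅ncl K E, ncl K E⁆ ≤ centralizer (ncl K E : Set G)) (h2 : ⁅ncl K E, ncl K E⁆ ≤ ZJ e T)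
    (h : ¬ JT e T ≤ Q) : ∃ g ∈ T, g ∉ Q ∧ ⁅⁅ncl K E, zpowers g⁆, zpowers g⁆ = ⊥ := by
  set V := ncl K E with hVd
  obtain ⟨W, ⟨A, hA, h3, rfl⟩, hmax⟩ := exists_max_card
    (P := fun W => ∃ A, MaxAb e T A ∧ ¬ A ≤ Q ∧ W = A ⊓ V) (by
      rw [JT_le_iff] at h
      push Not at h
      obtain ⟨A, h3, h4⟩ := h
      exact ⟨_, A, h3, h4, rfl⟩)
  have hAV : A ≤ normalizer (V : Set G) := (hA.le.trans hTK).trans (le_normalizer_ncl _ _)
  have h4 : V ≤ normalizer (A : Set G) := by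
    by_contra h4
    obtain ⟨A', a1, a2, a3, -⟩ := hA.replacement hT (hV.trans hQ) h1 (h2.trans hA.ZJ_le) (Or.inl hp2) hAV h4
    have a4 : A' ≤ Q := by
      by_contra a4
      exact (hmax _ ⟨A', a1, a4, rfl⟩).not_gt (card_lt_of_lt a2)
    exact h4 ((ncl_le (hE.trans (a1.ZJ_le_ZJ a4 hQ)) (hKQ.trans (normalizer_le_normalizer_ZJ e Q))).trans
      ((a1.mono a4 hQ).ZJ_le.trans a3))
  obtain ⟨g, h5, h6⟩ := SetLike.not_le_iff_exists.1 h3
  refine ⟨g, hA.le h5, h6, H7.commutator_eq_bot_iff'.2 ((zpowers_le.2 h5).trans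
    (hA.comm.trans (H7.centralizer_anti ?_)))⟩
  exact (commutator_mono le_rfl (zpowers_le.2 h5)).trans (H7.commutator_le_right_of_le_normalizer h4)

theorem JT_eq_of_le_of_isSyl {S H R : Subgroup G} (hS : IsSyl p S H) (hR : IsPGroup p R) (hRH : R ≤ H)
    (h : JT e S ≤ R) : JT e R = JT e S := by
  obtain ⟨g, -, h1⟩ := hS.exists_cj_le hR hRH
  rw [cj_le_iff] at h1
  obtain ⟨A, hA⟩ := exists_maxAb e S
  obtain ⟨A', hA'⟩ := exists_maxAb e (cj g⁻¹ S)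
  have h2 : ∀ B, MaxAb e S B → MaxAb e (cj g⁻¹ S) B := fun B hB => hA'.of_card_ge
    (hB.le_JT.trans (h.trans h1)) hB.comm hB.pow (by rw [hA'.card_eq (hB.cj g⁻¹), card_cj])
  have h3 : JT e S = JT e (cj g⁻¹ S) := eq_of_le_of_card_ge (JT_le_iff.2 fun B hB => (h2 B hB).le_JT)
    (by rw [← cj_JT, card_cj])
  rw [h3] at h ⊢
  exact JT_eq_of_le h h1

theorem down_ncl' {N K X : Subgroup G} {Q : Type*} [Group Q] (f : N →* Q) (hK : K ≤ N) (hX : X ≤ N) :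
    down f (ncl K X) = ncl (down f K) (down f X) := by
  refine le_antisymm ((down_le_iff' (ncl_le hX (hK.trans le_normalizer))).2 (ncl_le_iff.2 fun g hg => ?_))
    (ncl_le_iff.2 fun g hg => ?_)
  · refine (down_le_iff' (cj_le_of_le hX (le_normalizer (hK hg)))).1 ?_
    rw [down_cj f ⟨g, hK hg⟩]
    exact cj_le_ncl _ (mem_down_of_mem hg)
  · obtain ⟨g, h1, rfl⟩ := mem_down.1 hg
    rw [← down_cj]
    exact down_mono f (cj_le_ncl _ h1)

theorem le_normalizer_up_JT {N K T : Subgroup G} {Q : Type*} [Group Q] [Finite Q] (f : N →* Q) (hK : K ≤ N)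
    (h : K ≤ normalizer (T : Set G)) : K ≤ normalizer (up f (JT e (down f T)) : Set G) :=
  ((down_le_iff' hK).1 ((down_mono f h).trans ((down_normalizer_le f T).trans
    (normalizer_le_normalizer_JT e _)))).trans (up_normalizer_le f _)

theorem exists_eigen_ZJ (hp2 : p ≠ 2) {S H : Subgroup G} (hS : IsSyl p S H) {a : ℕ} (ha : a.Coprime p)
    (h : ¬ ∀ x ∈ ZJ 0 S, ∀ g ∈ H, g * x * g⁻¹ ∈ S → g * x * g⁻¹ ∈ ZJ 0 S) :
    ∃ z ∈ ZJ 0 S, z ≠ 1 ∧ ∃ h ∈ H, h * z * h⁻¹ = z ^ a := by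
  induction hc : Nat.card H using Nat.strong_induction_on generalizing S H with | _ n IH => ?_
  by_contra hcon
  set Z := ZJ 0 S with hZ
  have hZS : Z ≤ S := ZJ_le _ _
  have hZZ : Z ≤ centralizer (Z : Set G) := ZJ_comm _ _
  have hSZ : S ≤ normalizer (Z : Set G) := le_normalizer.trans (normalizer_le_normalizer_ZJ _ _)
  obtain ⟨Y, ⟨hYZ, hHY⟩, hmax⟩ := exists_max_card (P := fun Y => Y ≤ Z ∧ H ≤ normalizer (Y : Set G))
    ⟨⊥, bot_le, by rw [normalizer_eq_top]; exact le_top⟩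
  have core : ∀ Y', Y' ≤ Z → H ≤ normalizer (Y' : Set G) → Y' ≤ Y := fun Y' h1 h2 =>
    le_sup_right.trans (eq_of_le_of_card_ge le_sup_left (hmax _ ⟨sup_le hYZ h1, le_normalizer_sup hHY h2⟩)).ge
  have trick : ∀ L Q Y', L ≤ H → Q ≤ S → Q ≤ L → L ≤ normalizer (Q : Set G) → Y' ≤ Z →
      L ≤ normalizer (Y' : Set G) → ¬ Y' ≤ Y → L ≤ normalizer ((Z ⊓ Q : Subgroup G) : Set G) := by
    intro L Q Y' h1 h2 h3 h4 h5 h6 h7
    obtain ⟨S1, a1, a2⟩ := exists_isSyl_ge (hS.isPGroup.to_inf_left (K := normalizer (Y' : Set G)))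
      (inf_le_inf_right _ hS.le)
    have a3 : JT 0 S1 = JT 0 S := JT_eq_of_le_of_isSyl hS a1.isPGroup (a1.le.trans inf_le_left)
      ((le_inf (JT_le _ _) ((le_centralizer_iff.1 (h5.trans (ZJ_le_centralizer _ _))).trans
        (centralizer_le_normalizer _))).trans a2)
    have a4 : ZJ 0 S1 = Z := by rw [hZ, ZJ_zero, ZJ_zero, a3]
    by_contra a5
    obtain ⟨z, a6, a7, k, a8, a9⟩ := IH _ (hc ▸ card_lt_of_lt (inf_lt_left.2 fun e => h7 (core _ h5 e))) a1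
      (fun h8 => a5 fun l hl => mem_normalizer_of_forall fun x hx => by
        have a6 := conj_mem_of_mem_normalizer (h4 hl) hx.2
        exact ⟨a4 ▸ h8 x (a4 ▸ hx.1) l ⟨h1 hl, h6 hl⟩ (a2 ⟨h2 a6, h6 (h3 a6)⟩), a6⟩) rfl
    exact hcon ⟨z, a4 ▸ a6, a7, k, a8.1, a9⟩
  let Bad : Subgroup G → Prop := fun K => K ≤ H ∧ IsSyl p (S ⊓ K) K ∧ Y ≤ K ∧
    ¬ K ≤ normalizer ((Z ⊓ pCoreOf p K : Subgroup G) : Set G)
  have good : ∀ {K U : Subgroup G}, K ≤ H → IsSyl p (S ⊓ K) K → Y ≤ K → ¬ Bad K → IsPGroup p U → U ≤ K →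
      K ≤ normalizer (U : Set G) → K ≤ normalizer ((Z ⊓ U : Subgroup G) : Set G) := by
    intro K U h1 h2 h3 h4 h5 h6 h7
    have h8 : K ≤ normalizer ((Z ⊓ pCoreOf p K : Subgroup G) : Set G) := by
      by_contra h8
      exact h4 ⟨h1, h2, h3, h8⟩
    have := le_normalizer_inf h8 h7
    rwa [inf_assoc, inf_eq_right.2 (H7.le_pCoreOf h5 h6 h7)] at this
  have fus : ∀ c, (∀ K, Bad K → Nat.card ↥(S ⊓ K) < c) → ∀ U, U ≤ S → ∀ g ∈ H, cj g U ≤ S →
      c ≤ Nat.card U → cj g (Z ⊓ U) ≤ Z := fun c h1 => by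
    refine alperin_radical' hS (fun U g => c ≤ Nat.card U → cj g (Z ⊓ U) ≤ Z)
      (fun U g k _ _ _ _ _ h2 h3 h4 => ?_) (fun U V g h2 _ _ _ h3 h4 =>
        (cj_mono g (inf_le_inf_left _ h2)).trans (h3 (h4.trans (card_le_of_le h2))))
      (fun U _ g _ h2 _ => ?_) fun U h2 h3 h4 _ g h5 h6 h7 => ?_
    · rw [cj_mul]
      exact (cj_mono k (le_inf (h2 h4) (cj_mono g inf_le_right))).trans (h3 (by rwa [card_cj]))
    · rw [cj_eq_iff.2 (centralizer_le_normalizer _ (H7.centralizer_anti inf_le_right h2))]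
      exact inf_le_left
    · have h8 : U ≤ H ⊓ normalizer (U : Set G) := le_inf (h2.trans hS.le) le_normalizer
      have h9 : S ⊓ (H ⊓ normalizer (U : Set G)) = S ⊓ normalizer (U : Set G) := by
        rw [← inf_assoc, inf_eq_left.2 hS.le]
      rw [cj_eq_iff.2 (good inf_le_left (h9 ▸ h3) ((h4.le_of_normal hS h2 (hS.isPGroup.to_le (hYZ.trans hZS))
        ((hYZ.trans hZS).trans hS.le) hHY).trans h8) (fun h10 => (h1 _ h10).not_ge (h7.trans
          (card_le_of_le (le_inf h2 h8)))) (hS.isPGroup.to_le h2) h8 inf_le_right ⟨h5, h6⟩)]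
      exact inf_le_left
  obtain ⟨T, ⟨K0, b0, rfl⟩, hTmax⟩ := exists_max_card (P := fun T => ∃ K, Bad K ∧ T = S ⊓ K) (by
    by_contra! h1
    refine h fun x hx g hg h2 => fus 0 (fun K h3 => absurd rfl (h1 _ K h3)) (zpowers x)
      (zpowers_le.2 (hZS hx)) g hg (by rw [cj_zpowers]; exact zpowers_le.2 h2) (Nat.zero_le _)
      (conj_mem_cj ⟨hx, mem_zpowers x⟩))
  obtain ⟨K, ⟨⟨b1, b2, b3, b4⟩, hT⟩, hKmin⟩ := exists_min_card (P := fun K => Bad K ∧ S ⊓ K = S ⊓ K0)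
    ⟨K0, b0, rfl⟩
  rw [← hT] at hTmax hKmin
  clear hT b0 K0
  set T := S ⊓ K with hT
  set Q := pCoreOf p K with hQ
  have hQp : IsPGroup p Q := H7.isPGroup_pCoreOf p K
  have hQK : Q ≤ K := H7.pCoreOf_le p K
  have hKQ : K ≤ normalizer (Q : Set G) := H7.le_normalizer_pCoreOf p K
  have hQT : Q ≤ T := b2.le_of_normalizes hQp hQK (b2.le.trans hKQ)
  have hTS : T ≤ S := inf_le_left
  have hKY := b1.trans hHY
  have hYQ : Y ≤ Q := H7.le_pCoreOf (hS.isPGroup.to_le (hYZ.trans hZS)) b3 hKY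
  have hTM : T ≤ normalizer ((Z ⊓ Q : Subgroup G) : Set G) :=
    le_normalizer_inf (hTS.trans hSZ) (b2.le.trans hKQ)
  have hmin : ∀ K1, T ≤ K1 → K1 ≤ K → K1 ≠ K → K1 ≤ K ⊓ normalizer ((Z ⊓ Q : Subgroup G) : Set G) := by
    intro K1 h1 h2 h3
    have h4 : S ⊓ K1 = T := le_antisymm (inf_le_inf_left _ h2) (le_inf hTS h1)
    exact le_inf h2 (good (h2.trans b1) (h4 ▸ b2.mono h1 h2) (hYQ.trans (hQT.trans h1)) (fun h5 =>
      (hKmin _ ⟨h5, h4⟩).not_gt (card_lt_of_lt (lt_of_le_of_ne h2 h3))) hQp (hQT.trans h1) (h2.trans hKQ))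
  set E := Z ⊓ Q ⊓ H7.stab T Y with hE
  have hYE : Y ≤ E := le_inf (le_inf hYZ hYQ) (H7.le_stab_iff.2 ⟨le_normalizer,
    H7.commutator_le_right_of_le_normalizer (b2.le.trans hKY)⟩)
  have hEY : ¬ E ≤ Y := by
    obtain ⟨z, h1, h2, h3⟩ := exists_not_mem_commutator_mem b2.isPGroup (inf_le_right.trans hQT) hTM
      (K := Y) fun e => b4 (by rwa [le_antisymm e (le_inf hYZ hYQ)])
    exact fun e => h2 (e ⟨h1, H7.mem_stab.2 ⟨hKY (hQK h1.2), h3⟩⟩)
  have hET : ⁅E, T⁆ ≤ Y := by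
    rw [Subgroup.commutator_comm]; exact (H7.le_stab_iff.1 inf_le_right).2
  have hEQ : E ≤ Q := inf_le_left.trans inf_le_right
  have hEZ : E ≤ Z := inf_le_left.trans inf_le_left
  set V := ncl K E with hV
  have hVQ : V ≤ Q := ncl_le hEQ hKQ
  have hKV : K ≤ normalizer (V : Set G) := le_normalizer_ncl _ _
  have hVV : ⁅V, V⁆ ≤ Y := (commutator_mono hVQ le_rfl).trans (H7.le_stab_iff.1 (ncl_le
    (H7.le_stab_iff.2 ⟨(hEQ.trans hQK).trans hKY, (commutator_mono hQT le_rfl).trans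
      (H7.le_stab_iff.1 inf_le_right).2⟩) (H7.le_normalizer_stab hKQ hKY))).2
  obtain ⟨g, hg, h1, h2⟩ : ∃ g ∈ T, g ∉ Q ∧ ⁅⁅V, zpowers g⁆, zpowers g⁆ ≤ Y := by
    rcases hTS.eq_or_lt with e | hlt
    · obtain ⟨g, h1, h2, h3⟩ := exists_quad_of_JT (e := 0) hp2 b2.isPGroup b2.le hQT hKQ (e ▸ hEZ) hVQ
        (hVV.trans (le_centralizer_iff.1 (ncl_le (hEZ.trans (hZZ.trans (H7.centralizer_anti hYZ)))
          (le_normalizer_centralizer hKY)))) (e ▸ hVV.trans hYZ) fun h1 => b4 (le_normalizer_inf (by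
            rw [hZ, ← e, ← ZJ_eq_of_le h1 hQT]
            exact hKQ.trans (normalizer_le_normalizer_ZJ _ _)) hKQ)
      exact ⟨g, h1, h2, h3.le.trans bot_le⟩
    have := normal_subgroupOf_of_le_normalizer hHY
    set f := QuotientGroup.mk' (Y.subgroupOf H) with hf
    have hfs : Function.Surjective f := QuotientGroup.mk'_surjective _
    have hk : up f ⊥ = Y := by rw [up_bot_mk', inf_eq_left.2 (b3.trans b1)]
    have hTH := b2.le.trans b1
    have hVH := hVQ.trans (hQT.trans hTH)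
    have h1 : down f E ≤ ZJ 0 (down f T) := le_ZJ (down_mono f (hEQ.trans hQT))
      (le_centralizer_iff.1 ((JT_le _ _).trans (H7.commutator_eq_bot_iff'.1 (by
        rw [← down_commutator f (hEQ.trans (hQT.trans hTH)) hTH, down_eq_bot_iff
          ((commutator_le_sup _ _).trans (sup_le (hEQ.trans (hQT.trans hTH)) hTH)), hk]
        exact hET)))) fun _ _ => pow_zero _
    have h2 : ⁅down f V, down f V⁆ = ⊥ := by
      rw [← down_commutator f hVH hVH, down_eq_bot_iff ((commutator_le_sup _ _).trans (sup_le hVH hVH)), hk]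
      exact hVV
    have h3 := down_ncl' f b1 (hEQ.trans (hQT.trans hTH))
    obtain ⟨g, a1, a2, a3⟩ := exists_quad_of_JT (e := 0) hp2 (isPGroup_down f b2.isPGroup)
      (down_mono f b2.le) (down_mono f hQT) ((down_mono f hKQ).trans (down_normalizer_le f Q)) h1
      (h3 ▸ down_mono f hVQ) (by rw [← h3, h2]; exact bot_le) (by rw [← h3, h2]; exact bot_le) fun h4 => by
        set W := up f (JT 0 (down f T)) with hW
        have c1 : W ≤ Q := (up_mono f h4).trans (up_down_of_le f (hQT.trans hTH) (hk.le.trans hYQ)).le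
        have c2 : K ≤ normalizer (W : Set G) := by
          rw [hW, ← JT_eq_of_le h4 (down_mono f hQT)]
          exact le_normalizer_up_JT f b1 hKQ
        have c3 : T < S ⊓ normalizer (W : Set G) := (lt_inf_normalizer hS.isPGroup hlt).trans_le
          (le_inf inf_le_left (le_normalizer_up_JT f (inf_le_left.trans hS.le) inf_le_right))
        have c4 : E ≤ W := (down_le_iff' (hEQ.trans (hQT.trans hTH))).1 (h1.trans (ZJ_le_JT _ _))
        have c5 : W ≤ S ⊓ normalizer (W : Set G) := le_inf (c1.trans (hQT.trans hTS)) le_normalizer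
        obtain ⟨k, hk, c6, c7⟩ := exists_fullyNormalized hS hS.isPGroup.to_inf_left
          (inf_le_left.trans hS.le) (inf_le_right : S ⊓ normalizer (W : Set G) ≤ _)
        have c8 := fus (Nat.card ↥(S ⊓ normalizer (W : Set G))) fun K' h5 =>
          (hTmax _ ⟨K', h5, rfl⟩).trans_lt (card_lt_of_lt c3)
        have c9 := c8 _ inf_le_left k hk c6 le_rfl
        have c10 := c8 _ c6 k⁻¹ (H.inv_mem hk) (by rw [cj_inv_cj]; exact inf_le_left) (card_cj _ _).ge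
        have c11 : cj k W ≤ S := (cj_mono k c5).trans c6
        have c12 : S ⊓ (H ⊓ normalizer (cj k W : Set G)) = S ⊓ normalizer (cj k W : Set G) := by
          rw [← inf_assoc, inf_eq_left.2 hS.le]
        have c13 : cj k W ≤ H ⊓ normalizer (cj k W : Set G) := le_inf (c11.trans hS.le) le_normalizer
        have c14 := good inf_le_left (c12 ▸ c7) (le_trans (by
          rw [← cj_eq_iff.2 (hHY hk)]; exact cj_mono k (hYE.trans c4)) c13) (fun h5 => by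
            have := hTmax _ ⟨_, h5, rfl⟩
            rw [c12] at this
            refine (this.trans_lt (card_lt_of_lt c3)).not_ge ((card_cj k _).ge.trans (card_le_of_le (le_inf c6 ?_)))
            rw [← cj_normalizer]; exact cj_mono k inf_le_right)
          (hS.isPGroup.to_le c11) c13 inf_le_right
        refine b4 (trick K Q (cj k⁻¹ (Z ⊓ cj k W)) b1 (hQT.trans hTS) hQK hKQ
          ((cj_mono _ (inf_le_inf_left _ (cj_mono k c5))).trans c10) ?_ fun e => hEY (le_trans ?_ e))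
        · rw [← cj_normalizer, ← cj_le_iff]
          refine le_trans (le_inf (cj_le_of_le b1 (le_normalizer hk)) ?_) c14
          rw [← cj_normalizer]; exact cj_mono k c2
        · rw [← cj_le_iff]
          exact le_inf ((cj_mono k (le_inf hEZ (c4.trans c5))).trans c9) (cj_mono k c4)
    obtain ⟨g, a4, rfl⟩ := mem_down.1 a1
    refine ⟨g, a4, fun e => a2 (mem_down_of_mem e), ?_⟩
    have a5 := zpowers_le.2 g.2
    have a6 := (commutator_le_sup _ _).trans (sup_le hVH a5)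
    rwa [← h3, ← down_zpowers, ← down_commutator f hVH a5, ← down_commutator f a6 a5,
      down_eq_bot_iff ((commutator_le_sup _ _).trans (sup_le a6 a5)), hk] at a3
  obtain ⟨k, hk, X, L, hL⟩ := exists_lConf b2 (le_inf b2.le hTM) inf_le_left (fun e => b4 (e.trans inf_le_right))
    hmin (zpowers_le.2 hg) fun e => h1 (e (mem_zpowers g))
  replace hL := hL.sup b2.le b2.isPGroup (le_inf b2.le hTM) hQT hKQ
  rw [cj_zpowers] at hL
  have h3 : ncl (L ⊔ Q) E ≤ V := ncl_mono hL.leH le_rfl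
  obtain ⟨z, a1, a2, m, a3, a4⟩ := eigen_of_lConf hp2 hL b2.isPGroup (Z := Z ⊓ Q) (inf_le_left.trans
    (hZZ.trans (H7.centralizer_anti inf_le_left))) inf_le_right inf_le_left hYE (hL.leH.trans hKY) hET
    (hQp.to_le (h3.trans hVQ)) ((commutator_mono h3 h3).trans hVV) ((commutator_mono (commutator_mono h3 le_rfl)
      le_rfl).trans (quad_conj (hKV hk) (hKY hk) h2)) (fun e => hL.not_le (le_inf hL.leH
        (trick _ Q E (hL.leH.trans b1) (hQT.trans hTS) le_sup_right (hL.leH.trans hKQ) hEZ e hEY))) ha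
  exact hcon ⟨z, a1.1, a2, m, b1 a3.1, a4⟩

end Cfsg.H8
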