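import Cfsg.Agent.H8.Inv
import Cfsg.Agent.H9.Thompson
import Cfsg.Agent.H9.Util
import Cfsg.Agent.H9.Coprime

/-!
Offenders, recognition of `S₄`, and the rank one configuration coming from the L-lemma.
-/

set_option autoImplicit false
set_option linter.unusedSectionVars false

namespace Cfsg.H8

open Subgroup Cfsg.L0
open scoped commutatorElement

universe u

variable {G : Type u} [Group G] [Finite G] {p e : ℕ}

theorem involves_S4 {W : Subgroup G} [W.Normal] (hW : Nat.card W = 4)
    (h6 : (centralizer (W : Set G)).index = 6) : Involves (Equiv.Perm (Fin 4)) G := by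
  classical
  have : Fact (Nat.Prime 3) := ⟨Nat.prime_three⟩
  set C := centralizer (W : Set G) with hC
  have hn : ∀ K : Subgroup G, K ≤ normalizer (C : Set G) := fun K => by rw [normalizer_eq_top]; exact le_top
  obtain ⟨R, hR⟩ := exists_isSyl 3 (⊤ : Subgroup G)
  have h1 := relIndex_mul_index (le_sup_right : C ≤ R ⊔ C)
  have h2 := hR.not_dvd_of_le (le_sup_left : R ≤ R ⊔ C)
  rw [relIndex_top_right] at h2
  rw [relIndex_sup_of_le_normalizer (hn R), h6] at h1
  obtain ⟨k, hk⟩ := exists_relIndex_eq_pow hR.isPGroup C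
  have h3 : (R ⊔ C).index = 2 := by
    have h4 : (R ⊔ C).index ∣ 2 := Nat.Coprime.dvd_of_dvd_mul_left
      ((Nat.Prime.coprime_iff_not_dvd Nat.prime_three).2 h2).symm (Dvd.intro_left _ h1)
    rcases (Nat.dvd_prime Nat.prime_two).1 h4 with h | h
    · rw [h, hk, mul_one] at h1
      have : 2 ∣ 3 ^ k := h1 ▸ (by norm_num)
      exact absurd (Nat.prime_two.dvd_of_dvd_pow this) (by norm_num)
    · exact h
  have := normal_of_index_eq_two h3
  have hRC : ¬ R ≤ C := fun h => by
    rw [relIndex_eq_one.2 h, h3] at h1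
    omega
  set N := normalizer (R : Set G) with hN
  have h4 : N ⊔ C = ⊤ := eq_top_iff.2 fun g _ => by
    obtain ⟨n, h5, c, h7, rfl⟩ := (hR.mono le_sup_left le_top).frattini' (K := R ⊔ C) (g := g)
      (by rw [normalizer_eq_top]; trivial)
    exact mul_mem (mem_sup_left h5) (sup_le_sup_right le_normalizer C h7)
  have h5 : C.relIndex N = 6 := by rw [← relIndex_sup_of_le_normalizer (hn N), h4, relIndex_top_right, h6]
  have hW2 : IsPGroup 2 W := IsPGroup.of_card (n := 2) hW
  have hWn : ∀ K : Subgroup G, K ≤ normalizer (W : Set G) := fun K => by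
    rw [normalizer_eq_top]; exact le_top
  have h7 : W ⊓ centralizer (R : Set G) = ⊥ := by
    by_contra h8
    have h9 : W ⊓ centralizer (R : Set G) ≠ W := fun e => hRC (le_centralizer_iff.1 (inf_eq_left.1 e))
    have h10 : Nat.card ↥(W ⊓ centralizer (R : Set G)) ∣ 2 ^ 2 := by
      rw [show 2 ^ 2 = 4 from rfl, ← hW]; exact card_dvd_of_le inf_le_left
    obtain ⟨j, hj, h11⟩ := (Nat.dvd_prime_pow Nat.prime_two).1 h10
    have h12 := card_lt_of_lt (lt_of_le_of_ne inf_le_left h9)
    have h13 : j ≠ 0 := fun e => h8 (card_eq_one.1 (by rw [h11, e, pow_zero]))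
    have h14 : j = 1 := by
      rw [hW, h11] at h12
      interval_cases j <;> simp_all
    refine hRC (le_centralizer_iff.1 (H9.commutator_eq_bot_of_coprime (hWn R) ?_ ?_ |>
      H7.commutator_eq_bot_iff'.1 |> le_centralizer_iff.1))
    · obtain ⟨i, hi⟩ := IsPGroup.iff_card.1 hR.isPGroup
      rw [hi, hW]; exact Nat.Coprime.pow_left i (by norm_num)
    · refine H7.commutator_eq_bot_iff'.2 (le_centralizer_iff.1 (le_trans ?_
        (inf_le_right : W ⊓ centralizer (R : Set G) ≤ _)))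
      have h15 : (W ⊓ centralizer (R : Set G)).relIndex W = 2 := by
        have := card_mul_relIndex (inf_le_left : W ⊓ centralizer (R : Set G) ≤ W)
        rw [h11, h14, hW] at this; omega
      refine commutator_le.2 fun w hw r hr => ?_
      by_cases h16 : w ∈ W ⊓ centralizer (R : Set G)
      · rw [commutatorElement_eq_one_iff_mul_comm.2 (h16.2 r hr).symm]; exact one_mem _
      · rw [commutatorElement_def, mul_assoc, mul_assoc, ← mul_assoc r]
        refine H9.mul_mem_of_relIndex_two h15.dvd hw (conj_mem_of_mem_normalizer (hWn R hr) (inv_mem hw))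
          h16 fun h17 => h16 ?_
        have h18 := conj_mem_of_mem_normalizer' (le_normalizer_inf (hWn R)
          (le_normalizer_centralizer le_normalizer) hr) h17
        simpa [mul_assoc] using h18
  have h8 : N ⊓ W = ⊥ := by
    rw [eq_bot_iff, ← h7]
    refine le_inf inf_le_right (le_centralizer_iff.1 (H7.le_centralizer_of_commutator_le_bot ?_))
    refine (H7.commutator_le_inf' (le_normalizer_inf (le_normalizer_normalizer le_normalizer) (hWn R))
      inf_le_left).trans ?_
    refine (inf_le_inf_right _ inf_le_right).trans (H7.inf_eq_bot_of_isPGroup_of_coprime hW2 ?_).le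
    obtain ⟨i, hi⟩ := IsPGroup.iff_card.1 hR.isPGroup
    rw [hi]; exact Nat.Coprime.pow_left i (by norm_num)
  set H := N ⊔ W with hH
  have h9 : (N.subgroupOf H).index = 4 := by
    have h10 := card_sup_mul_card_inf (hWn N)
    rw [h8, card_bot, mul_one, hW, ← card_mul_relIndex (le_sup_left : N ≤ N ⊔ W)] at h10
    exact Nat.eq_of_mul_eq_mul_left Nat.card_pos h10
  set φ := MulAction.toPermHom H (H ⧸ N.subgroupOf H) with hφ
  have h10 : φ.ker ≤ N.subgroupOf H := by rw [← normalCore_eq_ker]; exact normalCore_le _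
  have h11 : φ.ker ≤ C.subgroupOf H := fun x hx w hw => by
    have h12 : (⁅x, ⟨w, mem_sup_right hw⟩⁆ : H) ∈ φ.ker := by
      rw [commutatorElement_def, mul_assoc, mul_assoc, ← mul_assoc _ x⁻¹]
      exact mul_mem hx (φ.normal_ker.conj_mem _ (inv_mem hx) _)
    have h13 : ⁅(x : G), w⁆ ∈ N ⊓ W := ⟨h10 h12, commutatorElement_mem_of_normalizer (hWn ⊤ trivial) hw⟩
    rw [h8, mem_bot, commutatorElement_eq_one_iff_mul_comm] at h13
    exact h13.symm
  have h12 : Nat.card (H ⧸ N.subgroupOf H) = 4 := h9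
  have h13 : φ.range = ⊤ := by
    refine eq_top_of_le_card _ ?_
    rw [← index_ker, ← relIndex_mul_index h10, h9, Nat.card_perm, h12]
    have := relIndex_le_of_le_left h11 (relIndex_pos φ.ker (N.subgroupOf H)).ne'
    rw [relIndex_subgroupOf le_sup_left, h5] at this
    simp only [Nat.factorial]; omega
  have e := (Finite.equivFinOfCardEq h12).permCongrHom
  exact involves_iff.2 ⟨H, e.toMonoidHom.comp φ, e.surjective.comp (MonoidHom.range_eq_top.1 h13)⟩

/-- `D` is an offender on `V`. -/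
def Off (V D : Subgroup G) : Prop :=
  (centralizer (D : Set G)).relIndex V ≤ (centralizer (V : Set G)).relIndex D

theorem off_iff {V D : Subgroup G} : Off V D ↔ Nat.card ↥(D ⊓ centralizer (V : Set G)) * Nat.card V ≤
    Nat.card D * Nat.card ↥(V ⊓ centralizer (D : Set G)) := by
  rw [← card_inf_mul_relIndex (centralizer (D : Set G)) V, ← card_inf_mul_relIndex (centralizer (V : Set G)) D,
    inf_comm D, inf_comm V, Off, mul_comm (Nat.card ↥(_ ⊓ V)), ← mul_assoc,
    Nat.mul_le_mul_right_iff Nat.card_pos, Nat.mul_le_mul_left_iff Nat.card_pos]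

theorem Off.cj {V D : Subgroup G} (h : Off V D) (g : G) : Off (cj g V) (cj g D) := by
  rwa [Off, ← cj_centralizer, ← cj_centralizer, relIndex_cj, relIndex_cj]

theorem off_of_best {V D : Subgroup G} (h : H9.Best V D) : Off V D := by
  have := h _ (inf_le_left : D ⊓ centralizer (V : Set G) ≤ D)
  rwa [inf_eq_left.2 (le_centralizer_iff.1 inf_le_right), ← off_iff] at this

theorem Off.best_or {V D : Subgroup G} (h : Off V D) :
    H9.Best V D ∨ ∃ E, E < D ∧ Off V E ∧ ¬ E ≤ centralizer (V : Set G) := by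
  by_cases hb : H9.Best V D
  · exact Or.inl hb
  simp only [H9.Best, not_forall, not_le] at hb
  obtain ⟨E, h1, h2⟩ := hb
  have h3 := (Nat.mul_le_mul_right _ (card_le_of_le (inf_le_inf_right _ h1))).trans_lt
    ((off_iff.1 h).trans_lt h2)
  refine Or.inr ⟨E, lt_of_le_of_ne h1 fun e => (e ▸ h2).false, off_iff.2 h3.le, fun h4 => ?_⟩
  rw [inf_eq_left.2 h4, inf_eq_left.2 (le_centralizer_iff.1 h4)] at h3
  exact h3.false

theorem MaxAb.best {S A V : Subgroup G} (h : MaxAb 0 S A) (hV : V ≤ S) (hc : V ≤ centralizer (V : Set G)) :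
    H9.Best V A := fun B hB => by
  have h1 : B ≤ centralizer ((V ⊓ centralizer (B : Set G) : Subgroup G) : Set G) :=
    le_centralizer_iff.1 inf_le_right
  rw [← card_sup_mul_card_inf (h1.trans (centralizer_le_normalizer _))]
  refine Nat.mul_le_mul ?_ (card_le_of_le (le_inf (inf_le_right.trans inf_le_left)
    (inf_le_left.trans (hB.trans h.comm))))
  by_contra! h2
  have h3 := h.of_card_ge (B := B ⊔ V ⊓ centralizer (B : Set G)) (sup_le (hB.trans h.le) (inf_le_left.trans hV))
    (by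
      rw [H7.centralizer_sup]
      exact sup_le (le_inf (hB.trans (h.comm.trans (H7.centralizer_anti hB))) h1)
        (le_inf inf_le_right (inf_le_left.trans (hc.trans (H7.centralizer_anti inf_le_left)))))
    (fun _ _ => pow_zero _) h2.le
  exact h2.ne (h.card_eq h3)

variable [hp : Fact p.Prime]

theorem exists_not_mem_commutator_mem {T W K : Subgroup G} (hT : IsPGroup p T) (hW : W ≤ T)
    (hn : T ≤ normalizer (W : Set G)) (h : ¬ W ≤ K) : ∃ z ∈ W, z ∉ K ∧ ∀ a ∈ T, ⁅a, z⁆ ∈ K := by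
  classical
  have h1 : ∃ i, iterCommutator W T i ≤ K := 
    (H9.exists_iterCommutator_eq_bot hT hW).imp fun i e => e.le.trans bot_le
  have h2 : ∀ i, iterCommutator W T i ≤ W := fun i => by
    induction i with
    | zero => exact le_rfl
    | succ i IH => exact (commutator_mono IH le_rfl).trans (H7.commutator_le_left_of_le_normalizer hn)
  have h3 : Nat.find h1 ≠ 0 := fun e => h (by have := Nat.find_spec h1; rwa [e] at this)
  obtain ⟨i, hi⟩ := Nat.exists_eq_succ_of_ne_zero h3
  obtain ⟨z, h4, h5⟩ := SetLike.not_le_iff_exists.1 (Nat.find_min h1 (by omega : i < Nat.find h1))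
  have h6 := Nat.find_spec h1
  rw [hi] at h6
  exact ⟨z, h2 i h4, h5, fun a ha => h6 (H7.commutator_mem_commutator' h4 ha)⟩

theorem comap_centralizer_down {N A : Subgroup G} {Q : Type*} [Group Q] (f : N →* Q) (hA : A ≤ N) :
    (centralizer (down f A : Set Q)).comap f = (H7.stab A (up f ⊥)).subgroupOf N := by
  ext x
  rw [mem_subgroupOf, H7.mem_stab, mem_comap, mem_centralizer_iff]
  refine ⟨fun h => ⟨le_normalizer_up f ⊥ x.2, fun a ha => ?_⟩, fun h y hy => ?_⟩
  · refine (coe_mem_up (x := ⁅(⟨a, hA ha⟩ : N), x⁆)).2 ?_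
    rw [map_commutatorElement, mem_bot, commutatorElement_eq_one_iff_mul_comm]
    exact h _ (mem_down_of_mem ha)
  · obtain ⟨a, ha, rfl⟩ := mem_down.1 hy
    have := (coe_mem_up (x := ⁅a, x⁆)).1 (h.2 _ ha)
    rwa [map_commutatorElement, mem_bot, commutatorElement_eq_one_iff_mul_comm] at this

theorem relIndex_centralizer_down {N A B : Subgroup G} {Q : Type*} [Group Q] (f : N →* Q) (hA : A ≤ N)
    (hB : B ≤ N) : (centralizer (down f A : Set Q)).relIndex (down f B) =
      (H7.stab A (up f ⊥)).relIndex B := by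
  rw [← relIndex_subgroupOf hB, ← comap_centralizer_down f hA, relIndex_comap]
  rfl

theorem down_ncl {N X : Subgroup G} {Q : Type*} [Group Q] {f : N →* Q} (hf : Function.Surjective f)
    (hX : X ≤ N) : down f (ncl N X) = ncl ⊤ (down f X) := by
  refine le_antisymm ((down_le_iff' (ncl_le hX le_normalizer)).2 (ncl_le_iff.2 fun g hg => ?_))
    (ncl_le_iff.2 fun g _ => ?_)
  · refine (down_le_iff' (cj_le_of_le hX (le_normalizer hg))).1 ?_
    rw [down_cj f ⟨g, hg⟩]
    exact cj_le_ncl _ trivial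
  · obtain ⟨g, rfl⟩ := hf g
    rw [← down_cj]
    exact down_mono f (cj_le_ncl _ g.2)

theorem LConf.sup {P H M D X L Q : Subgroup G} (h : LConf p P H M D X L) (hPH : P ≤ H) (hP : IsPGroup p P)
    (hPM : P ≤ M) (hQ : Q ≤ P) (hn : H ≤ normalizer (Q : Set G)) : LConf p P H M D (X ⊔ Q) (L ⊔ Q) := by
  have h1 := h.leH.trans hn
  refine ⟨?_, ?_, sup_le h.leH (hQ.trans hPH), sup_le (le_normalizer_sup h.norm h1)
    (le_sup_right.trans le_normalizer), ?_, fun h2 => h.not_le (le_sup_left.trans h2),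
    fun K h2 h3 h4 => ?_, fun t ht h2 => ?_⟩
  · rw [sup_right_comm]; exact sup_le h.leP hQ
  · rw [sup_right_comm]; exact sup_le_sup_right h.leL _
  · refine ⟨inf_le_right, hP.to_inf_left, fun h2 => h.syl.not_dvd (h2.trans ?_)⟩
    refine (relIndex_dvd_of_le_left _ (show P ⊓ L ⊔ Q ≤ P ⊓ (L ⊔ Q) from
      sup_le (inf_le_inf_left _ le_sup_left) (le_inf hQ le_sup_right))).trans ?_
    have h3 := card_sup_mul_card_inf h1
    have h4 := card_sup_mul_card_inf ((inf_le_right : P ⊓ L ≤ L).trans h1)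
    rw [inf_assoc, inf_eq_right.2 (inf_le_right.trans hQ)] at h4
    rw [← card_mul_relIndex (sup_le_sup_right (inf_le_right : P ⊓ L ≤ L) Q),
      ← card_mul_relIndex (inf_le_right : P ⊓ L ≤ L), mul_right_comm, h4, mul_right_comm] at h3
    exact (Nat.eq_of_mul_eq_mul_right Nat.card_pos h3 |> Nat.eq_of_mul_eq_mul_left Nat.card_pos).dvd
  · have hQK : Q ≤ K := (le_sup_right.trans le_sup_left).trans h2
    have h5 := h.max (K ⊓ L) (le_inf ((sup_le_sup_right le_sup_left _).trans h2) h.leL) inf_le_right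
      fun e => h4 (le_antisymm h3 (sup_le (inf_eq_right.1 e) hQK))
    intro k hk
    obtain ⟨l, hl, q, hq, rfl⟩ := (mem_sup_of_le_normalizer_right h1).1 (h3 hk)
    exact M.mul_mem (h5 ⟨(K.mul_mem_cancel_right (hQK hq)).1 hk, hl⟩) (hPM (hQ hq))
  · rw [sup_comm] at ht
    obtain ⟨q, hq, l, hl, rfl⟩ := (mem_sup_of_le_normalizer_left h1).1 ht
    refine sup_le ((h.gen l hl fun h3 => h2 (M.mul_mem (hPM (hQ hq)) h3)).trans (sup_le
      ((sup_le_sup_right le_sup_left _).trans le_sup_left) ?_)) ((le_sup_right.trans le_sup_left).trans le_sup_left)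
    rw [← cj_inv_cj q (cj l D), ← cj_mul q]
    exact cj_le_of_le le_sup_right (le_normalizer (inv_mem (mem_sup_left (mem_sup_left (mem_sup_right hq)))))

omit hp in
theorem mem_cent_iff {a x : G} : a ∈ centralizer ({x} : Set G) ↔ a * x * a⁻¹ = x := by
  rw [mem_centralizer_singleton_iff, mul_inv_eq_iff_eq_mul]

omit hp in
theorem le_cent_iff {K : Subgroup G} {x : G} : K ≤ centralizer ({x} : Set G) ↔ x ∈ centralizer (K : Set G) :=
  ⟨fun h _ hk => mem_centralizer_singleton_iff.1 (h hk), fun h _ hk => mem_centralizer_singleton_iff.2 (h _ hk)⟩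

/-- The rank one configuration: `D` acts quadratically on the abelian group `W`, fixes `x`, and
together with any conjugate by an element not fixing `x` generates the action of `L`. -/
structure RK1 (L W D : Subgroup G) (x : G) : Prop where
  comm : W ≤ centralizer (W : Set G)
  norm : L ≤ normalizer (W : Set G)
  leL : D ≤ L
  xW : x ∈ W
  xD : x ∈ centralizer (D : Set G)
  quad : ⁅W, D⁆ ≤ centralizer (D : Set G)
  gen : ∀ t ∈ L, t ∉ centralizer ({x} : Set G) → L ≤ centralizer (W : Set G) ⊔ D ⊔ cj t D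
  ne : ¬ L ≤ centralizer ({x} : Set G)

namespace RK1

variable {L W D D' : Subgroup G} {x x' : G}

theorem cj (h : RK1 L W D x) {g : G} (hg : g ∈ L) : RK1 L W (cj g D) (g * x * g⁻¹) := by
  have h1 : L0.cj g W = W := cj_eq_iff.2 (h.norm hg)
  have h2 : L0.cj g L = L := cj_eq_of_mem hg
  refine ⟨h.comm, h.norm, cj_le_of_le h.leL (le_normalizer hg), conj_mem_of_mem_normalizer (h.norm hg) h.xW,
    by rw [← cj_centralizer]; exact conj_mem_cj h.xD, ?_, fun t ht h3 => ?_, fun h3 => h.ne ?_⟩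
  · rw [← cj_centralizer, ← h1, ← cj_commutator]; exact cj_mono g h.quad
  · have := cj_mono g (h.gen (g⁻¹ * t * g) (L.mul_mem (L.mul_mem (L.inv_mem hg) ht) hg) fun h4 => h3 (by
      rw [← cj_centralizer_singleton, mem_cj]; exact h4))
    rwa [h2, cj_sup, cj_sup, cj_centralizer, h1, ← cj_mul, mul_assoc, mul_inv_cancel_left, cj_mul] at this
  · rwa [← cj_centralizer_singleton, ← h2, cj_le_cj_iff] at h3

theorem fix (h : RK1 L W D x) {l u : G} (hl : l ∈ L) (hn : l ∉ centralizer ({x} : Set G))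
    (hu : u ∈ W ⊓ centralizer (D : Set G)) (h1 : l * u * l⁻¹ ∈ centralizer (D : Set G)) :
    u ∈ W ⊓ centralizer (L : Set G) := by
  have h2 : L ≤ centralizer ({l * u * l⁻¹} : Set G) := (h.gen l hl hn).trans (sup_le (sup_le
    (le_cent_iff.2 (le_centralizer_iff.1 le_rfl (conj_mem_of_mem_normalizer (h.norm hl) hu.1)))
    (le_cent_iff.2 h1)) (le_cent_iff.2 (by rw [← cj_centralizer]; exact conj_mem_cj hu.2)))
  have h3 := mem_cent_iff.1 (h2 (L.inv_mem hl))
  simp only [inv_inv, mul_assoc, inv_mul_cancel_left, inv_mul_cancel, mul_one] at h3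
  refine ⟨hu.1, ?_⟩
  rw [h3, ← mul_assoc]
  exact le_cent_iff.1 h2

theorem not_mem (h : RK1 L W D x) : x ∉ W ⊓ centralizer (L : Set G) := fun h1 => h.ne (le_cent_iff.2 h1.2)

theorem comm_mem (h : RK1 L W D x) {a w : G} (ha : a ∈ D) (hw : w ∈ W) :
    ⁅a, w⁆ ∈ W ⊓ centralizer (D : Set G) :=
  ⟨commutatorElement_mem_of_normalizer (h.norm (h.leL ha)) hw, h.quad (H7.commutator_mem_commutator' hw ha)⟩

theorem comm_mul (h : RK1 L W D x) {a b w : G} (ha : a ∈ D) (hb : b ∈ D) (hw : w ∈ W) :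
    ⁅a * b, w⁆ = ⁅a, w⁆ * ⁅b, w⁆ := by
  rw [commutatorElement_mul_left_of_commute ((h.comm_mem hb hw).2 a ha)]
  exact h.comm (h.comm_mem ha hw).1 _ (h.comm_mem hb hw).1

theorem comm_inv (h : RK1 L W D x) {a w : G} (ha : a ∈ D) (hw : w ∈ W) : ⁅a⁻¹, w⁆ = ⁅a, w⁆⁻¹ :=
  commutatorElement_inv_left_of_commute ((h.comm_mem ha hw).2 a ha)

theorem Y_le (h : RK1 L W D x) : W ⊓ centralizer (L : Set G) ≤ W ⊓ centralizer (D : Set G) :=
  inf_le_inf_left _ (H7.centralizer_anti h.leL)

theorem inj (h : RK1 L W D x) (h' : RK1 L W D' x') {w : G} (hw : w ∈ W ⊓ centralizer (D' : Set G))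
    (hn : w ∉ W ⊓ centralizer (L : Set G)) {Z : Subgroup G} (hZ : ∀ a ∈ D, ⁅a, w⁆ ∈ Z) :
    (centralizer ({x'} : Set G)).relIndex D ≤ (W ⊓ centralizer (L : Set G)).relIndex Z := by
  refine relIndex_le_of_map (fun a => ⁅a, w⁆) hZ fun a ha b hb h1 => ?_
  by_contra h2
  have h3 := D.mul_mem (D.inv_mem ha) hb
  refine hn (h'.fix (h.leL h3) h2 hw ?_)
  rw [← h.comm_inv ha hw.1, ← h.comm_mul (D.inv_mem ha) hb hw.1] at h1
  have := mul_mem (h'.Y_le h1).2 hw.2
  rwa [commutatorElement_def, inv_mul_cancel_right] at this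

theorem surj (h : RK1 L W D x) (h' : RK1 L W D' x') {w : G} (hw : w ∈ W ⊓ centralizer (D' : Set G))
    (hn : w ∉ W ⊓ centralizer (L : Set G))
    (hc : (W ⊓ centralizer (L : Set G)).relIndex (W ⊓ centralizer (D : Set G)) ≤
      (centralizer ({x'} : Set G)).relIndex D) {u : G} (hu : u ∈ W ⊓ centralizer (D : Set G)) :
    ∃ a ∈ D, ⁅a, w⁆⁻¹ * u ∈ W ⊓ centralizer (L : Set G) := by
  set Y := W ⊓ centralizer (L : Set G) with hY
  let Z : Subgroup G := mkSub {u | ∃ a ∈ D, ⁅a, w⁆⁻¹ * u ∈ Y} ⟨1, D.one_mem, by simp⟩ (by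
    rintro u ⟨a, ha, h1⟩ v ⟨b, hb, h2⟩
    refine ⟨a * b, D.mul_mem ha hb, ?_⟩
    have h3 : u ∈ W := (W.mul_mem_cancel_left (W.inv_mem (h.comm_mem ha hw.1).1)).1 h1.1
    have h4 := h.comm (W.inv_mem (h.comm_mem hb hw.1).1) _ h1.1
    rw [h.comm_mul ha hb hw.1, mul_inv_rev, show ⁅b, w⁆⁻¹ * ⁅a, w⁆⁻¹ * (u * v) =
      ⁅b, w⁆⁻¹ * (⁅a, w⁆⁻¹ * u) * v by group, ← h4, mul_assoc]
    exact Y.mul_mem h1 h2)
  have h1 : Y ≤ Z := fun y hy => ⟨1, D.one_mem, by simpa using hy⟩
  have h2 : Z ≤ W ⊓ centralizer (D : Set G) := fun y ⟨a, ha, hy⟩ =>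
    (Subgroup.mul_mem_cancel_left _ (inv_mem (h.comm_mem ha hw.1))).1 (h.Y_le hy)
  have h3 := hc.trans (h.inj h' hw hn (Z := Z) fun a ha => ⟨a, ha, by rw [inv_mul_cancel]; exact Y.one_mem⟩)
  have h4 : Z = W ⊓ centralizer (D : Set G) := H7.eq_of_le_of_card_le h2 (by
    rw [← card_mul_relIndex h1, ← card_mul_relIndex h.Y_le]
    exact Nat.mul_le_mul_left _ h3)
  exact (h4.ge hu :)

end RK1

omit hp in
theorem relIndex_congr_card {A B A' B' : Subgroup G} (h1 : Nat.card B = Nat.card B')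
    (h2 : Nat.card ↥(A' ⊓ B') ≤ Nat.card ↥(A ⊓ B)) : A.relIndex B ≤ A'.relIndex B' := by
  refine Nat.le_of_mul_le_mul_left ?_ (Nat.card_pos (α := ↥(A' ⊓ B')))
  rw [card_inf_mul_relIndex, ← h1, ← card_inf_mul_relIndex A B]
  exact Nat.mul_le_mul_right _ h2

theorem le_centralizer_of_actsP {L W T K : Subgroup G} {x : G} (hxW : x ∈ W) (hx : W ≤ ncl L (zpowers x))
    (hT : IsSyl p T L) (hTx : T ≤ centralizer ({x} : Set G)) (hK : K ≤ L) (hn : L ≤ normalizer (K : Set G))
    (h : ActsP p K W) : K ≤ centralizer (W : Set G) := by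
  refine le_centralizer_iff.1 (hx.trans (ncl_le (zpowers_le.2 (le_cent_iff.1 fun g hg => ?_))
    (le_normalizer_centralizer hn)))
  obtain ⟨c, -, h1, w, h2, rfl⟩ := h.exists_mul (hT.inf hK (hT.le.trans hn)) hg
  exact mul_mem (mem_centralizer_singleton_iff.2 (h1 x hxW).symm) (hTx h2.1)

theorem inf_stab_le {L W T : Subgroup G} {x : G} (hxW : x ∈ W) (hx : W ≤ ncl L (zpowers x))
    (hWp : IsPGroup p W) (hL : L ≤ normalizer (W : Set G)) (hT : IsSyl p T L)
    (hTx : T ≤ centralizer ({x} : Set G)) :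
    L ⊓ H7.stab W (W ⊓ centralizer (L : Set G)) ≤ centralizer (W : Set G) := by
  have hLY := le_normalizer_inf hL (le_normalizer_centralizer (le_normalizer (H := L)))
  refine le_centralizer_of_actsP hxW hx hT hTx inf_le_left (le_normalizer_inf le_normalizer
    (H7.le_normalizer_stab hL hLY)) (actsP_of_relCent hWp (le_relCent (inf_le_left.trans hL)
      (inf_le_left.trans hLY) ?_) (actsP_of_le_centralizer (inf_le_left.trans
        (le_centralizer_iff.1 inf_le_right))))
  rw [Subgroup.commutator_comm]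
  exact (commutator_mono le_rfl inf_le_right).trans (H7.commutator_stab_le _ _)

theorem rk1_main {L W D T : Subgroup G} {x : G} (h : RK1 L W D x) (hW : W ≤ L) (hWp : IsPGroup p W)
    (hx : W ≤ ncl L (zpowers x)) (hT : IsSyl p T L) (hD : D ≤ T) (hTx : T ≤ centralizer ({x} : Set G))
    (ho : Off W D) : (p = 2 ∧ Involves (Equiv.Perm (Fin 4)) L) ∨
      ∃ B, B ≤ T ∧ Nat.card B < Nat.card D ∧ ⁅W, B⁆ ≤ centralizer (B : Set G) ∧
        ¬ B ≤ centralizer (W : Set G) ∧
        (H7.stab B (W ⊓ centralizer (L : Set G))).relIndex W ≤ (centralizer (W : Set G)).relIndex B := by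
  set M := centralizer ({x} : Set G) with hM
  set Y := W ⊓ centralizer (L : Set G) with hY
  set U := W ⊓ centralizer (D : Set G) with hU
  obtain ⟨t, ht, htM, hBT, hmax⟩ : ∃ t ∈ L, t ∉ M ∧ cj t D ⊓ M ≤ T ∧
      ∀ s ∈ L, s ∉ M → Nat.card ↥(cj s D ⊓ M) ≤ Nat.card ↥(cj t D ⊓ M) := by
    obtain ⟨t1, h1, h2⟩ := SetLike.not_le_iff_exists.1 h.ne
    obtain ⟨E, ⟨t, h3, h4, rfl⟩, h5⟩ := exists_max_card (P := fun E => ∃ t ∈ L, t ∉ M ∧ E = cj t D ⊓ M)
      ⟨_, t1, h1, h2, rfl⟩
    obtain ⟨m, hm, h6⟩ := (hT.mono (le_inf hT.le hTx) inf_le_left).exists_cj_le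
      (isPGroup_cj (hT.isPGroup.to_le hD) t).to_inf_left (inf_le_inf_right M (h.cj h3).leL)
    have h7 : cj m (cj t D ⊓ M) = cj (m * t) D ⊓ M := by rw [cj_inf, cj_eq_of_mem hm.2, cj_mul]
    refine ⟨m * t, L.mul_mem hm.1 h3, fun h8 => h4 ((M.mul_mem_cancel_left hm.2).1 h8), h7 ▸ h6,
      fun s h8 h9 => ?_⟩
    rw [← h7, card_cj]
    exact h5 _ ⟨s, h8, h9, rfl⟩
  have h' := h.cj ht
  set B := cj t D with hB
  set x' := t * x * t⁻¹ with hx'
  set U' := W ⊓ centralizer (B : Set G) with hU'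
  have hWt : cj t W = W := cj_eq_iff.2 (h.norm ht)
  have hUt : cj t U = U' := by rw [hU, cj_inf, hWt, cj_centralizer]
  have hYt : cj t Y = Y := by rw [hY, cj_inf, hWt, cj_centralizer, cj_eq_of_mem ht]
  have hn : ∀ {K Z : Subgroup G}, K ≤ W → Z ≤ W → K ≤ normalizer (Z : Set G) := fun h1 h2 =>
    (h1.trans (h.comm.trans (H7.centralizer_anti h2))).trans (centralizer_le_normalizer _)
  have hUU : U ⊓ U' = Y := by
    refine le_antisymm (fun u hu => ⟨hu.1.1, le_cent_iff.1 ((h.gen t ht htM).trans (sup_le (sup_le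
      (le_cent_iff.2 (le_centralizer_iff.1 le_rfl hu.1.1)) (le_cent_iff.2 hu.1.2)) (le_cent_iff.2 hu.2.2)))⟩)
      (le_inf h.Y_le h'.Y_le)
  have hUW : U ⊔ U' ≤ W := sup_le inf_le_left inf_le_left
  have hWU : W ≤ U ⊔ U' := by
    refine hx.trans (ncl_le (zpowers_le.2 (mem_sup_left ⟨h.xW, h.xD⟩)) ((h.gen t ht htM).trans
      (sup_le (sup_le ((H7.centralizer_anti hUW).trans (centralizer_le_normalizer _)) ?_) ?_)))
    · exact H7.le_normalizer_of_commutator_le hUW ((le_inf (H7.commutator_le_left_of_le_normalizer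
        (h.leL.trans h.norm)) h.quad).trans le_sup_left)
    · exact H7.le_normalizer_of_commutator_le hUW ((le_inf (H7.commutator_le_left_of_le_normalizer
        (h'.leL.trans h.norm)) h'.quad).trans le_sup_right)
  have hWe : W = U ⊔ U' := le_antisymm hWU hUW
  set s := Y.relIndex U with hs
  have s1 : Y.relIndex U' = s := by rw [hs, ← relIndex_cj t Y U, hYt, hUt]
  have s2 : U'.relIndex W = s := by
    rw [hWe, relIndex_sup_of_le_normalizer (hn inf_le_left inf_le_left), ← inf_relIndex_left, hUU]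
  have s3 : U.relIndex W = s := by
    rw [hWe, sup_comm, relIndex_sup_of_le_normalizer (hn inf_le_left inf_le_left), ← inf_relIndex_right, hUU, s1]
  have s4 : s ≤ (centralizer (W : Set G)).relIndex B := by
    have := ho.cj t
    rwa [hWt, Off, ← inf_relIndex_left, s2] at this
  have s5 : M.relIndex B ≤ (centralizer ({x'} : Set G)).relIndex D := by
    refine relIndex_congr_card (card_cj t D) ?_
    rw [← card_cj t⁻¹, cj_inf, hx', ← cj_centralizer_singleton, cj_inv_cj, inf_comm, inf_comm M]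
    exact hmax _ (L.inv_mem ht) fun h1 => htM (M.inv_mem_iff.1 h1)
  have hCM : centralizer (W : Set G) ≤ M := le_cent_iff.2 (le_centralizer_iff.1 le_rfl h.xW)
  have s6 : (centralizer (W : Set G)).relIndex (B ⊓ M) * M.relIndex B =
      (centralizer (W : Set G)).relIndex B := by
    rw [inf_comm, relIndex_inf_mul_relIndex, inf_eq_left.2 hCM]
  have hx'U : x' ∉ U := fun h1 => h.not_mem (h.fix ht htM ⟨h.xW, h.xD⟩ h1.2)
  by_cases hB0 : B ⊓ M ≤ centralizer (W : Set G)
  · left
    rw [relIndex_eq_one.2 hB0, one_mul] at s6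
    have h1 : ∀ u ∈ U, u ∉ Y → u⁻¹ * x ∈ Y := fun u hu hn' => by
      obtain ⟨b, hb, h1⟩ := h'.surj h hu hn' (by rw [s1, s6]; exact s4) ⟨h'.xW, h'.xD⟩
      obtain ⟨a, ha, h2⟩ := h.surj h' ⟨h'.xW, h'.xD⟩ h'.not_mem ((s4.trans s6.ge).trans s5) hu
      have hbL := h'.leL hb
      have hl : b⁻¹ * a * t ∈ L := L.mul_mem (L.mul_mem (L.inv_mem hbL) (h.leL ha)) ht
      have h3 : u⁻¹ * (b⁻¹ * a * t * x * (b⁻¹ * a * t)⁻¹) ∈ Y := by
        have c1 := (h'.comm_mem hb hu.1).1
        have c2 := (h.comm_mem ha h'.xW).1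
        have h4 : u⁻¹ * (b⁻¹ * a * t * x * (b⁻¹ * a * t)⁻¹) =
            b⁻¹ * ((⁅a, x'⁆⁻¹ * u)⁻¹ * (⁅b, u⁆⁻¹ * x')) * b := by
          rw [mul_inv_rev ⁅a, x'⁆⁻¹, inv_inv, mul_assoc u⁻¹, ← mul_assoc ⁅a, x'⁆, h.comm (W.inv_mem c1) _ c2]
          simp only [commutatorElement_def, hx']
          group
        rw [h4]
        exact conj_mem_of_mem_normalizer' (le_normalizer_inf h.norm (le_normalizer_centralizer
          le_normalizer) hbL) (Y.mul_mem (Y.inv_mem h2) h1)
      have h4 : b⁻¹ * a * t ∈ M := by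
        by_contra h4
        exact h.not_mem (h.fix hl h4 ⟨h.xW, h.xD⟩ ((U.mul_mem_cancel_left (U.inv_mem hu)).1 (h.Y_le h3)).2)
      rwa [mem_cent_iff.1 h4] at h3
    have h2 : s = 2 := by
      refine ((Nat.dvd_prime Nat.prime_two).1 (H9.relIndex_dvd_two_of_forall fun a ha b hb h2 h3 => ?_)).resolve_left
        fun e => h.not_mem (relIndex_eq_one.1 e ⟨h.xW, h.xD⟩)
      have := Y.mul_mem (h1 _ (U.inv_mem ha) fun h4 => h2 (Y.inv_mem_iff.1 h4)) (Y.inv_mem (h1 b hb h3))
      simpa [mul_assoc] using this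
    have h3 : p = 2 := by
      have := dvd_relIndex_of_not_le (hWp.to_inf_left (K := centralizer (D : Set G)))
        fun e => h.not_mem (e ⟨h.xW, h.xD⟩)
      rw [← hU, ← hY, ← hs, h2] at this
      exact (Nat.prime_dvd_prime_iff_eq hp.out Nat.prime_two).1 this
    refine ⟨h3, ?_⟩
    subst h3
    have hLY : L ≤ normalizer (Y : Set G) := le_normalizer_inf h.norm (le_normalizer_centralizer le_normalizer)
    have := normal_subgroupOf_of_le_normalizer hLY
    set f := QuotientGroup.mk' (Y.subgroupOf L) with hf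
    have hfs : Function.Surjective f := QuotientGroup.mk'_surjective _
    have hk : up f ⊥ = Y := by rw [up_bot_mk', inf_eq_left.2 (inf_le_left.trans hW)]
    have := normal_down hfs h.norm
    have h4 : Nat.card (down f W) = 4 := by
      rw [card_down f hW, hk, ← relIndex_mul_relIndex Y U W h.Y_le inf_le_left, s3, ← hs, h2]
    refine involves_trans (involves_S4 h4 ?_) (involves_of_surjective hfs)
    have h5 := H9.relIndex_centralizer_dvd_factorial (U := down f W) (X := ⊤) (by rw [normalizer_eq_top])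
    rw [h4, relIndex_top_right] at h5
    have h7 := inf_stab_le h.xW hx hWp h.norm hT hTx
    have h8 : (centralizer (down f W : Set (L ⧸ Y.subgroupOf L))).index = (centralizer (W : Set G)).relIndex L := by
      rw [← relIndex_top_right, ← down_top hfs, relIndex_centralizer_down f hW le_rfl, hk,
        ← inf_relIndex_left, ← inf_relIndex_left L (centralizer _)]
      congr 1
      refine le_antisymm (le_inf inf_le_left h7) (inf_le_inf_left _ ?_)
      exact H7.le_stab_iff.2 ⟨(H7.centralizer_anti inf_le_left).trans (centralizer_le_normalizer _),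
        H7.commutator_le_of_le_centralizer le_rfl⟩
    rw [h8] at h5 ⊢
    have hLC := le_normalizer_centralizer h.norm
    have h9 : 2 ∣ (centralizer (W : Set G)).relIndex L :=
      (dvd_relIndex_of_not_le (hT.isPGroup.to_le hD) fun e => hx'U ⟨h'.xW, le_centralizer_iff.1 e h'.xW⟩).trans
        (relIndex_dvd_of_le_right h.leL hLC)
    have h10 : (centralizer (W : Set G)).relIndex L ≠ 2 := fun e => h.ne ((le_centralizer_of_actsP h.xW hx hT hTx
      le_rfl le_normalizer ⟨h.norm, fun g hg => ⟨1, by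
        rw [pow_one, ← e]; exact pow_relIndex_mem hLC hg⟩⟩).trans hCM)
    have h11 := Nat.le_of_dvd (by norm_num) h5
    revert h5 h9 h10 h11
    generalize (centralizer (W : Set G)).relIndex L = d
    intro h5 h9 h10 h11
    change d ≤ 6 at h11
    change d ∣ 6 at h5
    interval_cases d <;> omega
  · right
    set K := U ⊓ H7.stab (B ⊓ M) Y with hK
    have hWT : W ≤ T := hT.le_of_normalizes hWp hW (hT.le.trans h.norm)
    obtain ⟨z, hz, h1, h2⟩ := exists_not_mem_commutator_mem hT.isPGroup hWT (hT.le.trans h.norm)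
      (K := K) fun e => hx'U (e h'.xW).1
    obtain ⟨u, hu, w, hw, rfl⟩ := (mem_sup_of_le_normalizer_right (hn inf_le_left inf_le_left)).1 (hWU hz)
    have h3 : w ∉ Y := fun h3 => h1 ⟨U.mul_mem hu (h.Y_le h3), H7.mem_stab.2 ⟨hn le_rfl inf_le_left hz,
      fun c hc => hUU.le ⟨(h2 c (hBT hc)).1, h'.comm_mem hc.1 hz⟩⟩⟩
    have h4 := h.inj h' hw h3 (Z := K) fun a ha => by
      have := h2 a (hD ha)
      rwa [commutatorElement_mul_right_of_commute (h.comm (h.comm_mem ha hw.1).1 _ hu.1),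
        commutatorElement_eq_one_iff_mul_comm.2 (hu.2 a ha), one_mul] at this
    have hYK : Y ≤ K := le_inf h.Y_le fun y hy => H7.mem_stab.2 ⟨le_normalizer hy, fun c hc => by
      rw [commutatorElement_eq_one_iff_mul_comm.2 (hy.2 c (h'.leL hc.1))]; exact one_mem _⟩
    have h5 : K ⊔ U' ≤ H7.stab (B ⊓ M) Y := sup_le inf_le_right fun y hy => H7.mem_stab.2
      ⟨hn le_rfl inf_le_left hy.1, fun c hc => by
        rw [commutatorElement_eq_one_iff_mul_comm.2 (hy.2 c hc.1)]; exact one_mem _⟩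
    have h6 := relIndex_mul_relIndex U' (K ⊔ U') W le_sup_right
      (sup_le (inf_le_left.trans inf_le_left) inf_le_left)
    rw [s2, relIndex_sup_of_le_normalizer (hn (inf_le_left.trans inf_le_left) inf_le_left),
      ← inf_relIndex_left, le_antisymm ((inf_le_inf_right _ inf_le_left).trans hUU.le)
        (le_inf hYK h'.Y_le)] at h6
    refine ⟨B ⊓ M, hBT, ?_, (commutator_mono le_rfl inf_le_left).trans (h'.quad.trans
      (H7.centralizer_anti inf_le_left)), hB0, (relIndex_le_of_le_left h5 (relIndex_pos _ _).ne').trans ?_⟩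
    · rw [← card_cj t D]
      refine card_lt_of_lt (inf_lt_left.2 fun e => h.ne ((h.gen t ht htM).trans ?_))
      exact sup_le (sup_le hCM (hD.trans hTx)) e
    · refine Nat.le_of_mul_le_mul_left ?_ (relIndex_pos Y K)
      rw [h6, mul_comm]
      exact s4.trans (s6.ge.trans (Nat.mul_le_mul_left _ (s5.trans h4)))

/-- Failure of factorization when all proper overgroups of the Sylow subgroup fix `x`. -/
theorem ff_fixed {P H D : Subgroup G} {x : G} (hP : IsSyl p P H) (hx : P ≤ centralizer ({x} : Set G))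
    (hV : ncl H (zpowers x) ≤ P) (hmin : ∀ K, P ≤ K → K ≤ H → K ≠ H → K ≤ centralizer ({x} : Set G))
    (hD : D ≤ P) (hq : ⁅ncl H (zpowers x), D⁆ ≤ centralizer (D : Set G))
    (hn : ¬ D ≤ centralizer (ncl H (zpowers x) : Set G)) (ho : Off (ncl H (zpowers x)) D) :
    p = 2 ∧ Involves (Equiv.Perm (Fin 4)) H := by
  induction hc : Nat.card D using Nat.strong_induction_on generalizing G with | _ n IH => ?_
  set V := ncl H (zpowers x) with hVd
  have hxV : x ∈ V := le_ncl _ _ (mem_zpowers x)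
  have hHV : H ≤ normalizer (V : Set G) := le_normalizer_ncl _ _
  have hC : ∀ {K}, K ≤ P → H ≤ normalizer (K : Set G) → K ≤ centralizer (V : Set G) := fun h1 h2 =>
    le_centralizer_of_actsP hxV le_rfl hP hx (h1.trans hP.le) h2
      (actsP_of_isPGroup (hP.isPGroup.to_le h1) ((h1.trans hP.le).trans hHV))
  have hH : ¬ H ≤ centralizer ({x} : Set G) := fun h => hn (le_centralizer_iff.1 (ncl_le
    (zpowers_le.2 (le_cent_iff.1 ((hD.trans hP.le).trans h))) ?_))
  swap
  · exact le_centralizer_iff.1 (ncl_le (zpowers_le.2 (le_cent_iff.1 h)) (le_normalizer_centralizer le_normalizer))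
      |> fun h1 => absurd ((hD.trans hP.le).trans h1) hn
  obtain ⟨g, hg, X, L, hL⟩ := exists_lConf hP (le_inf hP.le hx) inf_le_left (fun h => hH (h.trans inf_le_right))
    (fun K h1 h2 h3 => le_inf h2 (hmin K h1 h2 h3)) hD fun h => hn (h.trans (hC
      (hP.le_of_normalizes (H7.isPGroup_pCoreOf p H) (H7.pCoreOf_le p H)
        (hP.le.trans (H7.le_normalizer_pCoreOf p H))) (H7.le_normalizer_pCoreOf p H)))
  replace hL := hL.sup hP.le hP.isPGroup (le_inf hP.le hx) hV hHV
  have hVX : V ≤ X ⊔ V := le_sup_right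
  generalize X ⊔ V = X at hL hVX
  generalize L ⊔ V = L at hL
  have hVg : cj g V = V := cj_eq_iff.2 (hHV hg)
  replace ho := ho.cj g
  replace hq := cj_mono g hq
  rw [← cj_le_cj_iff g, cj_centralizer] at hn
  rw [cj_commutator, cj_centralizer] at hq
  rw [← card_cj g] at hc
  rw [hVg] at ho hq hn
  generalize cj g D = D at *
  replace hD := le_sup_right.trans hL.leP
  rcases ho.best_or with hb | ⟨E, h1, h2, h3⟩
  swap
  · exact IH _ (hc ▸ card_lt_of_lt h1) hP hx hV hmin (h1.le.trans hD) ((commutator_mono le_rfl h1.le).trans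
      (hq.trans (H7.centralizer_anti h1.le))) h3 h2 rfl
  set W := ncl L (zpowers x) with hW
  have hWV : W ≤ V := ncl_mono hL.leH le_rfl
  have hVV := hC hV hHV
  have hxW : x ∈ W := le_ncl _ _ (mem_zpowers x)
  have hLW : L ≤ normalizer (W : Set G) := le_normalizer_ncl _ _
  have hXL := le_sup_left.trans hL.leL
  have hWL : W ≤ L := hWV.trans (hVX.trans hXL)
  have hXP := le_sup_left.trans hL.leP
  have hWp := hP.isPGroup.to_le (hWV.trans hV)
  have hTx := (inf_le_left : P ⊓ L ≤ P).trans hx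
  have hR : RK1 L W D x := ⟨hWV.trans (hVV.trans (H7.centralizer_anti hWV)), hLW, le_sup_right.trans hL.leL,
    hxW, le_cent_iff.1 (hD.trans hx), (commutator_mono hWV le_rfl).trans hq, fun t ht h1 =>
      (hL.gen t ht fun h2 => h1 h2.2).trans (sup_le_sup_right (sup_le_sup_right
        (le_centralizer_of_actsP hxW le_rfl hL.syl hTx hXL hL.norm
          (actsP_of_isPGroup (hP.isPGroup.to_le hXP) (hXL.trans hLW))) _) _),
    fun h => hL.not_le (le_inf hL.leH h)⟩
  rcases rk1_main hR hWL hWp le_rfl hL.syl (le_inf hD hR.leL) hTx (off_of_best (hb.mono hVV hWV)) with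
    ⟨h1, h2⟩ | ⟨B, h1, h2, h3, h4, h5⟩
  · exact ⟨h1, involves_mono h2 hL.leH⟩
  set Y := W ⊓ centralizer (L : Set G) with hY
  have hLY : L ≤ normalizer (Y : Set G) := le_normalizer_inf hLW (le_normalizer_centralizer le_normalizer)
  have := normal_subgroupOf_of_le_normalizer hLY
  set f := QuotientGroup.mk' (Y.subgroupOf L) with hf
  have hfs : Function.Surjective f := QuotientGroup.mk'_surjective _
  have hk : up f ⊥ = Y := by rw [up_bot_mk', inf_eq_left.2 (inf_le_left.trans hWL)]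
  have hBL := h1.trans inf_le_right
  have hS := hL.syl.down f le_rfl
  rw [down_top hfs] at hS
  have h6 : ncl ⊤ (zpowers (f ⟨x, hWL hxW⟩)) = down f W := by
    rw [← down_zpowers, ← down_ncl hfs (zpowers_le.2 (hWL hxW))]
  have h7 : ∀ K, K ≤ L → K ≤ centralizer ({x} : Set G) →
      down f K ≤ centralizer {f ⟨x, hWL hxW⟩} := fun K _ h7 y hy => by
    obtain ⟨y, h8, rfl⟩ := mem_down.1 hy
    rw [mem_centralizer_singleton_iff, ← map_mul, ← map_mul]
    exact congrArg f (Subtype.ext (mem_centralizer_singleton_iff.1 (h7 h8)))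
  have h8 := inf_stab_le hxW le_rfl hWp hLW hL.syl hTx
  have h9 := IH _ (hc ▸ ((card_down f hBL).trans_le
      (Nat.le_of_dvd Nat.card_pos (relIndex_dvd_card _ _))).trans_lt h2)
    hS (h7 _ inf_le_right hTx) (by rw [h6]; exact down_mono f (le_inf (hWV.trans hV) hWL))
    (fun K a1 _ a2 => by
      rw [← down_up hfs K]
      refine h7 _ (up_le _ _) ((hL.max _ ((le_inf hL.leP hL.leL).trans ((down_le_iff' inf_le_right).1 a1))
        (up_le _ _) fun e => a2 ?_).trans inf_le_right)
      rw [← down_up hfs K, e, down_top hfs])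
    (down_mono f h1) (by
      rw [h6, ← down_commutator f hWL hBL]
      intro y hy
      obtain ⟨y, a1, rfl⟩ := mem_down.1 hy
      intro z hz
      obtain ⟨z, a2, rfl⟩ := mem_down.1 hz
      rw [← map_mul, ← map_mul]
      exact congrArg f (Subtype.ext (h3 a1 _ a2)))
    (by
      rw [h6, ← relIndex_eq_one, relIndex_centralizer_down f hWL hBL, hk, relIndex_eq_one]
      exact fun e => h4 ((le_inf hBL e).trans h8))
    (by
      rw [h6, Off, relIndex_centralizer_down f hWL hBL, relIndex_centralizer_down f hBL hWL, hk]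
      refine h5.trans (le_of_eq_of_le ?_ (relIndex_le_of_le_left (le_refl _) (relIndex_pos _ _).ne'))
      rw [← inf_relIndex_right, ← inf_relIndex_right (H7.stab W Y)]
      congr 1
      refine le_antisymm (inf_le_inf_right _ ?_) (le_inf ((le_inf (inf_le_right.trans hBL)
        inf_le_left).trans h8) inf_le_right)
      exact H7.le_stab_iff.2 ⟨(H7.centralizer_anti inf_le_left).trans (centralizer_le_normalizer _),
        H7.commutator_le_of_le_centralizer le_rfl⟩) rfl
  exact ⟨h9.1, involves_mono (involves_trans (involves_top_iff.1 h9.2) (involves_of_surjective hfs)) hL.leH⟩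

end Cfsg.H8
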