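import Cfsg.Agent.H8.Syl
import Mathlib.Algebra.Group.MinimalAxioms
import Mathlib.GroupTheory.SpecificGroups.Dihedral

/-!
The group `D₈ ≀ Z₂` of order 128 as a type of bit vectors, and small facts about it.
-/

set_option autoImplicit false

namespace Cfsg.H8.QW

open Subgroup

/-- Addition of bits. -/
def bx : Bool → Bool → Bool
  | false, b => b
  | true, b => !b

/-- `a₁^i b₁^j z₁^k a₂^l b₂^m z₂^n τ^e`. -/
structure TT where
  i : Bool
  j : Bool
  k : Bool
  l : Bool
  m : Bool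
  n : Bool
  e : Bool

namespace TT

def beq (s t : TT) : Bool :=
  !(bx s.i t.i) && !(bx s.j t.j) && !(bx s.k t.k) && !(bx s.l t.l) && !(bx s.m t.m) &&
    !(bx s.n t.n) && !(bx s.e t.e)

theorem bx_eq : ∀ a b : Bool, (!(bx a b)) = true ↔ a = b := by decide

theorem beq_iff (s t : TT) : beq s t = true ↔ s = t := by
  cases s; cases t
  simp only [beq, Bool.and_eq_true, bx_eq, mk.injEq, and_assoc]

instance instDecEq : DecidableEq TT := fun s t => decidable_of_iff _ (beq_iff s t)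

theorem forall_iff (p : TT → Prop) : (∀ a b c d e f g, p ⟨a, b, c, d, e, f, g⟩) ↔ ∀ t, p t :=
  ⟨fun h t => h _ _ _ _ _ _ _, fun h _ _ _ _ _ _ _ => h _⟩

theorem exists_iff (p : TT → Prop) : (∃ a b c d e f g, p ⟨a, b, c, d, e, f, g⟩) ↔ ∃ t, p t :=
  ⟨fun ⟨_, _, _, _, _, _, _, h⟩ => ⟨_, h⟩, fun ⟨_, h⟩ => ⟨_, _, _, _, _, _, _, h⟩⟩

instance (priority := high) instDecAll (p : TT → Prop) [DecidablePred p] : Decidable (∀ t, p t) :=
  decidable_of_iff _ (forall_iff p)

instance (priority := high) instDecEx (p : TT → Prop) [DecidablePred p] : Decidable (∃ t, p t) :=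
  decidable_of_iff _ (exists_iff p)

def mul (s t : TT) : TT :=
  match s.e with
  | false => ⟨bx s.i t.i, bx s.j t.j, bx (bx s.k t.k) (s.j && t.i),
      bx s.l t.l, bx s.m t.m, bx (bx s.n t.n) (s.m && t.l), t.e⟩
  | true => ⟨bx s.i t.l, bx s.j t.m, bx (bx s.k t.n) (s.j && t.l),
      bx s.l t.i, bx s.m t.j, bx (bx s.n t.k) (s.m && t.i), !t.e⟩

def inv (s : TT) : TT :=
  match s.e with
  | false => ⟨s.i, s.j, bx s.k (s.i && s.j), s.l, s.m, bx s.n (s.l && s.m), false⟩
  | true => ⟨s.l, s.m, bx s.n (s.l && s.m), s.i, s.j, bx s.k (s.i && s.j), true⟩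

instance instMul : Mul TT := ⟨mul⟩
instance instInv : Inv TT := ⟨inv⟩
instance instOne : One TT := ⟨⟨false, false, false, false, false, false, false⟩⟩

theorem bx_assoc : ∀ a b c, bx (bx a b) c = bx a (bx b c) := by decide

theorem bx_coc : ∀ j k i' j' k' i'' k'' : Bool,
    bx (bx (bx (bx k k') (j && i')) k'') (bx j j' && i'') =
      bx (bx k (bx (bx k' k'') (j' && i''))) (j && bx i' i'') := by decide

theorem bx_coc' : ∀ j k i' j' k' i'' k'' : Bool,
    bx k (bx k' (bx (j && i') (bx k'' (bx j j' && i'')))) =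
      bx k (bx k' (bx k'' (bx (j' && i'') (j && bx i' i'')))) := by decide

theorem mul_assoc' (r s t : TT) : r * s * t = r * (s * t) := by
  obtain ⟨_, _, _, _, _, _, e⟩ := r
  obtain ⟨_, _, _, _, _, _, e'⟩ := s
  obtain ⟨_, _, _, _, _, _, e''⟩ := t
  change mul (mul _ _) _ = mul _ (mul _ _)
  cases e <;> cases e' <;> cases e'' <;>
    simp only [mul, Bool.not_true, Bool.not_false, bx_assoc, bx_coc', mk.injEq, and_self]

instance instGroup : Group TT :=
  Group.ofLeftAxioms mul_assoc' (by decide +kernel) (by decide +kernel)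

def bl : List Bool := [false, true]

def all : List TT :=
  bl.flatMap fun a => bl.flatMap fun b => bl.flatMap fun c => bl.flatMap fun d =>
    bl.flatMap fun e => bl.flatMap fun f => bl.map fun g => ⟨a, b, c, d, e, f, g⟩

instance instFintype : Fintype TT :=
  ⟨⟨(all : Multiset TT), by decide +kernel⟩, by
    have h : ∀ t, t ∈ all := by decide +kernel
    exact h⟩

theorem card_TT : Nat.card TT = 128 := by
  rw [Nat.card_eq_fintype_card]; decide +kernel

end TT

def a1 : TT := ⟨true, false, false, false, false, false, false⟩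
def b1 : TT := ⟨false, true, false, false, false, false, false⟩
def z1 : TT := ⟨false, false, true, false, false, false, false⟩
def a2 : TT := ⟨false, false, false, true, false, false, false⟩
def b2 : TT := ⟨false, false, false, false, true, false, false⟩
def z2 : TT := ⟨false, false, false, false, false, true, false⟩
def ta : TT := ⟨false, false, false, false, false, false, true⟩
def zz : TT := ⟨false, false, true, false, false, true, false⟩
def bz : TT := ⟨false, true, false, false, false, true, false⟩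
def bb : TT := ⟨false, true, false, false, true, false, false⟩

/-- The commutator. -/
def cm (u v : TT) : TT := u * v * u⁻¹ * v⁻¹

/-- A subgroup given by a Boolean predicate. -/
def mkS (p : TT → Bool) (h1 : p 1 = true) (hm : ∀ s, p s = true → ∀ t, p t = true → p (s * t) = true)
    (hi : ∀ s, p s = true → p s⁻¹ = true) : Subgroup TT where
  carrier := {s | p s = true}
  one_mem' := h1
  mul_mem' := fun ha hb => hm _ ha _ hb
  inv_mem' := fun ha => hi _ ha

def J0 : Subgroup TT := mkS (fun s => !s.e) (by decide) (by decide +kernel) (by decide +kernel)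
def T0 : Subgroup TT :=
  mkS (fun s => !(bx s.j s.m)) (by decide) (by decide +kernel) (by decide +kernel)
def P0 : Subgroup TT := mkS (fun s => !s.e && !s.i) (by decide) (by decide +kernel)
  (by decide +kernel)
def Z0 : Subgroup TT := mkS (fun s => !s.e && !s.i && !s.j && !s.l && !s.m) (by decide)
  (by decide +kernel) (by decide +kernel)
def U0 : Subgroup TT := mkS (fun s => !s.e && !s.i && !s.l && !(bx s.j s.m)) (by decide)
  (by decide +kernel) (by decide +kernel)
def K0 : Subgroup TT := mkS (fun s => !s.e && !s.j) (by decide) (by decide +kernel)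
  (by decide +kernel)
def Ct : Subgroup TT := mkS (fun s => TT.beq (s * ta) (ta * s)) (by decide) (by decide +kernel)
  (by decide +kernel)

/-- The four elementary abelian subgroups of order 16. -/
def EE (p q : Bool) : Subgroup TT :=
  mkS (fun s => !s.e && !(cond p s.i s.j) && !(cond q s.l s.m)) (by revert p q; decide)
    (by revert p q; decide +kernel) (by revert p q; decide +kernel)

instance instDecJ0 : DecidablePred (· ∈ J0) := fun s => inferInstanceAs (Decidable ((!s.e) = true))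
instance instDecT0 : DecidablePred (· ∈ T0) :=
  fun s => inferInstanceAs (Decidable ((!(bx s.j s.m)) = true))
instance instDecP0 : DecidablePred (· ∈ P0) :=
  fun s => inferInstanceAs (Decidable ((!s.e && !s.i) = true))
instance instDecZ0 : DecidablePred (· ∈ Z0) :=
  fun s => inferInstanceAs (Decidable ((!s.e && !s.i && !s.j && !s.l && !s.m) = true))
instance instDecU0 : DecidablePred (· ∈ U0) :=
  fun s => inferInstanceAs (Decidable ((!s.e && !s.i && !s.l && !(bx s.j s.m)) = true))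
instance instDecK0 : DecidablePred (· ∈ K0) :=
  fun s => inferInstanceAs (Decidable ((!s.e && !s.j) = true))
instance instDecCt : DecidablePred (· ∈ Ct) :=
  fun s => inferInstanceAs (Decidable (TT.beq (s * ta) (ta * s) = true))
instance instDecEE (p q : Bool) : DecidablePred (· ∈ EE p q) :=
  fun s => inferInstanceAs (Decidable ((!s.e && !(cond p s.i s.j) && !(cond q s.l s.m)) = true))

theorem card_of (X : Subgroup TT) [DecidablePred (· ∈ X)] :
    Nat.card X = (Finset.univ.filter (· ∈ X)).card := by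
  rw [Nat.card_eq_fintype_card, Fintype.card_subtype]

theorem card_EE (p q : Bool) : Nat.card (EE p q) = 16 := by
  rw [card_of]; revert p q; decide +kernel

theorem index_two {X : Subgroup TT} (h : Nat.card X = 64) : X.index = 2 := by
  have := X.card_mul_index
  rw [h, TT.card_TT] at this
  omega

theorem index_J0 : J0.index = 2 := index_two (by rw [card_of]; decide +kernel)
theorem index_T0 : T0.index = 2 := index_two (by rw [card_of]; decide +kernel)

theorem pow8 : ∀ w : TT, w ^ 8 = 1 := by decide +kernel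

theorem gen_eq : ∀ s ∈ J0, s = cond s.i a1 1 * cond s.j b1 1 * cond s.k z1 1 * cond s.l a2 1 *
    cond s.m b2 1 * cond s.n z2 1 := by decide +kernel

theorem mem_of_bits {K : Subgroup TT} {s : TT} (hs : s ∈ J0) (hi : s.i = true → a1 ∈ K)
    (hj : s.j = true → b1 ∈ K) (hk : s.k = true → z1 ∈ K) (hl : s.l = true → a2 ∈ K)
    (hm : s.m = true → b2 ∈ K) (hn : s.n = true → z2 ∈ K) : s ∈ K := by
  have h : ∀ (c : Bool) (x : TT), (c = true → x ∈ K) → cond c x 1 ∈ K := fun c x h => by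
    cases c
    · exact K.one_mem
    · exact h rfl
  rw [gen_eq s hs]
  exact mul_mem (mul_mem (mul_mem (mul_mem (mul_mem (h _ _ hi) (h _ _ hj)) (h _ _ hk)) (h _ _ hl))
    (h _ _ hm)) (h _ _ hn)

/-! ### The elementary abelian subgroups of order 16 -/

theorem cls12 : ∀ s, s ∉ J0 → s * s = 1 →
    (Finset.univ.filter fun w : TT => w * w = 1 ∧ w * s = s * w).card ≤ 12 := by decide +kernel

theorem ee_sq : ∀ p q, ∀ s ∈ EE p q, s * s = 1 := by decide +kernel
theorem ee_cm : ∀ p q, ∀ s ∈ EE p q, ∀ t ∈ EE p q, s * t = t * s := by decide +kernel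
theorem ee_J : ∀ p q, ∀ s ∈ EE p q, s ∈ J0 := by decide +kernel
theorem ee_nm : ∀ p q, ∀ t ∈ J0, ∀ s ∈ EE p q, t * s * t⁻¹ ∈ EE p q := by decide +kernel
theorem ee_sw : ∀ p q, ∀ s ∈ EE p q, ta * s * ta⁻¹ ∈ EE q p := by decide +kernel
theorem ee_bits : ∀ u ∈ J0, u * u = 1 → ∀ v ∈ J0, v * v = 1 → u * v = v * u →
    (u.j = true → v.i = false) ∧ (u.m = true → v.l = false) := by decide +kernel
theorem ee_mem : ∀ p q, ∀ s ∈ J0, cond p s.i s.j = false → cond q s.l s.m = false → s ∈ EE p q := by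
  decide +kernel

def wt (p q : Bool) : TT := ⟨!p, p, false, !q, q, false, false⟩

theorem wt_mem : ∀ p q, wt p q ∈ EE p q := by decide
theorem wt_cj : ∀ p q p' q' t, t * wt p q * t⁻¹ ∈ EE p' q' →
    (p' = p ∧ q' = q) ∨ (p' = q ∧ q' = p) := by decide +kernel

theorem j_nm : ∀ t, ∀ s ∈ J0, t * s * t⁻¹ ∈ J0 := by decide +kernel
theorem u_nm : ∀ t, ∀ s ∈ U0, t * s * t⁻¹ ∈ U0 := by decide +kernel
theorem j_two : ∀ s, s ∉ J0 → ∀ t, t ∉ J0 → s⁻¹ * t ∈ J0 := by decide +kernel
theorem cen_z1 : ∀ t, t * z1 = z1 * t → t ∈ J0 := by decide +kernel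
theorem j_z1 : ∀ t ∈ J0, t * z1 = z1 * t := by decide +kernel
theorem j_z2 : ∀ t ∈ J0, t * z2 = z2 * t := by decide +kernel
theorem t_zz : ∀ t, t * zz = zz * t := by decide +kernel
theorem cm_z1 : ∀ t, z1 * t * z1⁻¹ = t ∨ z1 * t * z1⁻¹ = t * zz := by decide +kernel

/-! ### Automorphisms of `J` -/

def cc (a b c d : Bool) : Bool := bx (a && d) (b && c)

theorem cm_J : ∀ u ∈ J0, ∀ v ∈ J0, cm u v =
    ⟨false, false, cc u.i u.j v.i v.j, false, false, cc u.l u.m v.l v.m, false⟩ := by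
  decide +kernel

theorem cc_cen : ∀ a b c d e f, cc a b c d = true → cc e f a b = false → cc e f c d = false →
    e = false ∧ f = false := by decide

theorem cc_cm : ∀ u ∈ J0, ∀ v ∈ J0, u * v = v * u →
    cc u.i u.j v.i v.j = false ∧ cc u.l u.m v.l v.m = false := by decide +kernel

theorem aut_ab : ∀ u ∈ J0, u * u = 1 → u.l = false → u.m = false → ∀ v ∈ J0, v * v = 1 →
    v.l = false → v.m = false → cm u v ≠ 1 →
    (a1⁻¹ * u ∈ Z0 ∧ b1⁻¹ * v ∈ Z0) ∨ (b1⁻¹ * u ∈ Z0 ∧ a1⁻¹ * v ∈ Z0) := by decide +kernel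

theorem z0_cases : ∀ s ∈ Z0, s = 1 ∨ s = z1 ∨ s = z2 ∨ s = zz := by decide +kernel
theorem cm_Z0 : ∀ u ∈ J0, ∀ v ∈ J0, cm u v ∈ Z0 := by decide +kernel

/-! ### Classes of involutions -/

/-- The representative of the class in `S₄ ≀ Z₂`. -/
def rp (s : TT) : TT :=
  if s.e then ta else if s.j && s.m then bb else
    if s.j then (if s.l || s.n then bz else b1) else
    if s.m then (if s.i || s.k then bz else b1) else
    if (s.i || s.k) && (s.l || s.n) then zz else
    if s.i || s.k || s.l || s.n then z1 else 1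

theorem rp_cj : ∀ s : TT, s * s = 1 → ∃ t : TT, t * s * t⁻¹ = rp s ∨
    (t * s * t⁻¹ = a1 ∧ rp s = z1) ∨ (t * s * t⁻¹ = a1 * z2 ∧ rp s = zz) ∨
    (t * s * t⁻¹ = a1 * a2 ∧ rp s = zz) ∨ (t * s * t⁻¹ = b1 * a2 ∧ rp s = bz) := by
  decide +kernel

theorem rp_J : ∀ s ∈ J0, s ≠ 1 → rp s = z1 ∨ rp s = zz ∨ rp s = b1 ∨ rp s = bz ∨ rp s = bb := by
  decide +kernel

/-! ### The class of `b₁` -/

theorem p_cm : ∀ s ∈ P0, s * b1 = b1 * s := by decide +kernel
theorem b_le_P : ∀ s ∈ EE true true, s ∈ P0 := by decide +kernel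
theorem f_le_P : ∀ s ∈ EE true false, s ∈ P0 := by decide +kernel
theorem t0_nm : ∀ s ∈ T0, ta * s * ta⁻¹ ∈ T0 := by decide +kernel
theorem cm_FB : ∀ u ∈ EE true false, ∀ v ∈ EE true true, cm u v = 1 ∨ cm u v = z2 := by
  decide +kernel
theorem bft : ∀ u ∈ EE true true, u ∈ EE true false → u ∈ T0 → u ≠ 1 → u ≠ z2 →
    u = z1 ∨ u = zz := by decide +kernel
theorem bf_z : ∀ v ∈ EE true true, v ∈ EE true false → v ≠ 1 → v ≠ zz → rp v ≠ z1 → rp v ≠ bz →
    v = b1 ∨ v = b1 * z1 := by decide +kernel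
theorem f_z : ∀ v ∈ EE true false, v ≠ 1 → v ≠ zz → v ≠ b1 → v ≠ b1 * z1 → rp v ≠ z1 →
    rp v ≠ bz → v = z1 * a2 ∨ v = z1 * a2 * z2 := by decide +kernel
theorem f_fin : ∀ t, t * z1 * t⁻¹ = z2 → t * (b1 * a2) * t⁻¹ ∉ EE true false := by decide +kernel
theorem bf_y : ∀ v ∈ EE true true, v ∈ EE true false → v ≠ 1 → v ≠ z1 → v ≠ z2 → rp v ≠ zz →
    rp v ≠ bz → v = b1 ∨ v = b1 * z1 := by decide +kernel
theorem f_y : ∀ v ∈ EE true false, v ≠ 1 → v ≠ z1 → v ≠ z2 → v ≠ b1 → v ≠ b1 * z1 → rp v ≠ zz →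
    rp v ≠ bz → v = a2 ∨ v = a2 * z2 := by decide +kernel
theorem b_bb : ∀ v ∈ EE true true, cm a2 v = z2 →
    rp v = bb ∨ rp (z1 * v) = bz ∨ rp (z1 * v) = b1 := by decide +kernel

/-! ### The class of `τ` -/

theorem ct_cm : ∀ s ∈ Ct, s * ta = ta * s := by decide +kernel
theorem cm_zz : ∀ u ∈ J0, ∀ v ∈ J0, cm u v = zz →
    (⟨v.i, v.j, false, false, false, false, false⟩ : TT) * u *
      (⟨v.i, v.j, false, false, false, false, false⟩ : TT)⁻¹ = z1 * u := by decide +kernel
theorem sq_ee : ∀ w : TT, w * w * (w * w) = 1 → w * w ∈ EE false false ∨ w * w ∈ EE true true := by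
  decide +kernel
theorem zz_ee : ∀ p, zz ∈ EE p p := by decide
theorem ct_inv : ∀ u : TT, u * u = 1 → ta * u = u * ta → u ≠ 1 → rp u ≠ zz → rp u ≠ ta →
    u = bb ∨ (a1 * a2) * u * (a1 * a2)⁻¹ = bb := by decide +kernel
set_option synthInstance.maxSize 2048 in
theorem gz_cj : ∀ u : TT, u * u = 1 → u ≠ 1 → rp u ≠ zz → rp u ≠ ta → rp u ≠ bz →
    rp (u * zz) ≠ zz → rp (u * zz) ≠ bz → u ≠ z1 → u ≠ z2 → bb⁻¹ * u ∈ Z0 := by decide +kernel
theorem cen_U : ∀ w : TT, w * z1 = z1 * w → w * bb = bb * w → w ∈ EE true true := by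
  decide +kernel
theorem b_U : ∀ w ∈ EE true true, ∀ s ∈ U0, w * s = s * w := by decide +kernel
theorem b_two : ∀ w ∈ EE true true, w ∉ U0 → ∀ v ∈ EE true true, v ∉ U0 → w⁻¹ * v ∈ U0 := by
  decide +kernel
theorem u_cases : ∀ s ∈ U0, s ∈ Z0 ∨ bb⁻¹ * s ∈ Z0 := by decide +kernel

/-! ### The action of the element of order three -/

def sg (s : TT) : TT := ⟨bx s.i s.k, false, s.i, s.l, s.m, s.n, false⟩

theorem sg_mul : ∀ s ∈ K0, ∀ t ∈ K0, sg (s * t) = sg s * sg t := by decide +kernel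
theorem sg_inv : ∀ s ∈ K0, sg s⁻¹ = (sg s)⁻¹ := by decide +kernel
theorem sg_mem : ∀ s, sg s ∈ K0 := by decide +kernel
theorem k_J : ∀ s ∈ K0, s ∈ J0 ∧ s.j = false := by decide +kernel
theorem cen_E : ∀ t ∈ J0, t * a1 = a1 * t → t * b2 = b2 * t → t ∈ EE false true := by
  decide +kernel
theorem cen_a1 : ∀ t ∈ J0, t * a1 = a1 * t → t ∈ K0 := by decide +kernel
theorem e_K : ∀ t ∈ EE false true, t ∈ K0 := by decide +kernel
theorem e_cob : ∀ t ∈ EE false true, t * sg t * sg (sg t) = 1 →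
    ∃ a ∈ K0, a * (sg a)⁻¹ = t ∧ ∀ s ∈ EE false true, a⁻¹ * s * a⁻¹⁻¹ = s := by decide +kernel

open DihedralGroup in
/-- The second dihedral factor. -/
def d8f : DihedralGroup 4 → TT
  | r i => (a2 * b2) ^ i.val
  | sr i => a2 * (a2 * b2) ^ i.val

/-- The second dihedral factor. -/
def d8 : DihedralGroup 4 →* TT := MonoidHom.mk' d8f (by decide +kernel)

theorem d8_inj : Function.Injective d8 := by
  have : ∀ a b, d8f a = d8f b → a = b := by decide +kernel
  exact this
theorem d8_of : ∀ t ∈ K0, sg t = t → ∃ d, d8f d = t := by decide +kernel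
theorem d8_K : ∀ d, d8f d ∈ K0 ∧ sg (d8f d) = d8f d ∧ d8f d * a1 = a1 * d8f d ∧
    d8f d * z1 = z1 * d8f d ∧ d8f d * z2 = z2 * d8f d := by decide +kernel
theorem d8_b : ∀ d, d8f d * b2 = b2 * d8f d →
    d8f d = 1 ∨ d8f d = z2 ∨ d8f d = b2 ∨ d8f d = b2 * z2 := by decide +kernel

end Cfsg.H8.QW
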