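import Cfsg.Agent.H8.QW1

/-!
A group with Sylow 2-subgroup `D₈ ≀ Z₂` whose central involution has a centralizer of
characteristic two: weak closure of `J` and of the elementary abelian subgroups of order 16.
-/

set_option autoImplicit false
set_option linter.unusedSectionVars false

namespace Cfsg.H8.QW

open Subgroup Cfsg.L0

local notation "𝒩" X:max => Subgroup.normalizer (SetLike.coe X)
local notation "𝒞" X:max => Subgroup.centralizer (SetLike.coe X)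
local notation "𝒞₁" x:max => Subgroup.centralizer (singleton x : Set _)

variable {G : Type*} [Group G] {ι : TT →* G}

/-- `g` conjugates `s` to `t`. -/
def Cj (ι : TT →* G) (g : G) (s t : TT) : Prop := g * ι s * g⁻¹ = ι t

namespace Cj

variable {g h : G} {s t u s' t' : TT}

theorem mul (h1 : Cj ι g s t) (h2 : Cj ι g s' t') : Cj ι g (s * s') (t * t') := by
  unfold Cj at *
  rw [map_mul, map_mul, ← h1, ← h2]; group

theorem inv (h1 : Cj ι g s t) : Cj ι g s⁻¹ t⁻¹ := by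
  unfold Cj at *
  rw [map_inv, map_inv, ← h1]; group

theorem one (g : G) : Cj ι g 1 1 := by simp [Cj]

theorem symm (h1 : Cj ι g s t) : Cj ι g⁻¹ t s := by
  unfold Cj at *
  rw [← h1]; group

theorem trans (h1 : Cj ι g s t) (h2 : Cj ι h t u) : Cj ι (h * g) s u := by
  unfold Cj at *
  rw [← h2, ← h1]; group

theorem of (t s : TT) : Cj ι (ι t) s (t * s * t⁻¹) := by simp [Cj]

theorem of' {t s u : TT} (h : t * s * t⁻¹ = u) : Cj ι (ι t) s u := h ▸ of t s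

theorem cm (h1 : Cj ι g s t) (h2 : Cj ι g s' t') : Cj ι g (cm s s') (cm t t') :=
  ((h1.mul h2).mul h1.inv).mul h2.inv

theorem eq (h1 : Cj ι g s t) (e1 : s = s') (e2 : t = t') : Cj ι g s' t' := e1 ▸ e2 ▸ h1

theorem fix_iff : Cj ι g s s ↔ g * ι s = ι s * g := by
  unfold Cj; rw [mul_inv_eq_iff_eq_mul]

theorem mem_c1 : Cj ι g s s ↔ g ∈ 𝒞₁ (ι s) := by
  rw [fix_iff, mem_centralizer_singleton_iff]

theorem pow (h1 : Cj ι g s s) (n : ℕ) : Cj ι (g ^ n) s s :=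
  mem_c1.mpr (pow_mem (mem_c1.mp h1) n)

theorem pow_mul (h1 : Cj ι g s (s * t)) (h2 : Cj ι g t t) (n : ℕ) :
    Cj ι (g ^ n) s (s * t ^ n) := by
  induction n with
  | zero => simp [Cj]
  | succ n ih =>
    rw [pow_succ' g]
    refine ih.trans ?_
    have h3 : Cj ι g (t ^ n) (t ^ n) := by
      rw [fix_iff] at h2 ⊢
      rw [map_pow]
      exact (Commute.pow_right h2 n)
    exact (h1.mul h3).eq rfl (by rw [pow_succ', mul_assoc])

end Cj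

/-- The elements that `g` conjugates into `Y`. -/
def pre (ι : TT →* G) (g : G) (Y : Subgroup TT) : Subgroup TT where
  carrier := {s | ∃ t ∈ Y, Cj ι g s t}
  one_mem' := ⟨1, one_mem _, Cj.one g⟩
  mul_mem' := fun ⟨_, h1, h2⟩ ⟨_, h3, h4⟩ => ⟨_, mul_mem h1 h3, h2.mul h4⟩
  inv_mem' := fun ⟨_, h1, h2⟩ => ⟨_, inv_mem h1, h2.inv⟩

/-- The elements centralized by `g`. -/
def fx (ι : TT →* G) (g : G) : Subgroup TT where
  carrier := {s | Cj ι g s s}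
  one_mem' := Cj.one g
  mul_mem' := fun h1 h2 => Cj.mul h1 h2
  inv_mem' := fun h1 => Cj.inv h1

/-- `g` conjugates `X` into `Y`. -/
def Mp (ι : TT →* G) (g : G) (X Y : Subgroup TT) : Prop := ∀ s ∈ X, ∃ t ∈ Y, Cj ι g s t

theorem mp_iff {g : G} {X Y : Subgroup TT} : Mp ι g X Y ↔ cj g (X.map ι) ≤ Y.map ι := by
  rw [cj_le_iff_forall]
  constructor
  · rintro h _ ⟨s, hs, rfl⟩
    obtain ⟨t, ht, e⟩ := h s hs
    exact ⟨t, ht, Eq.symm e⟩
  · intro h s hs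
    obtain ⟨t, ht, e⟩ := h _ ⟨s, hs, rfl⟩
    exact ⟨t, ht, e.symm⟩

theorem mp_top {g : G} {X : Subgroup TT} (h : cj g (X.map ι) ≤ ι.range) : Mp ι g X ⊤ :=
  mp_iff.mpr (by rwa [← MonoidHom.range_eq_map])

theorem Mp.trans {g h : G} {X Y Z : Subgroup TT} (h1 : Mp ι g X Y) (h2 : Mp ι h Y Z) :
    Mp ι (h * g) X Z := fun s hs => by
  obtain ⟨t, ht, e⟩ := h1 s hs
  obtain ⟨u, hu, e'⟩ := h2 t ht
  exact ⟨u, hu, e.trans e'⟩

theorem Mp.mono {g : G} {X Y X' : Subgroup TT} (h1 : Mp ι g X Y) (h : ∀ s ∈ X', s ∈ X) :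
    Mp ι g X' Y := fun s hs => h1 s (h s hs)

theorem Mp.of {X Y : Subgroup TT} {t : TT} (h : ∀ s ∈ X, t * s * t⁻¹ ∈ Y) : Mp ι (ι t) X Y :=
  fun s hs => ⟨_, h s hs, Cj.of t s⟩

theorem Mp.nm [Finite G] {g : G} {X : Subgroup TT} (h : Mp ι g X X) : g ∈ 𝒩 (X.map ι) :=
  mem_normalizer_of_cj_le (mp_iff.mp h)

theorem Mp.of_nm {g : G} {X : Subgroup TT} (h : g ∈ 𝒩 (X.map ι)) : Mp ι g X X :=
  mp_iff.mpr (cj_eq_iff.mpr h).le

theorem map_le_nm [Finite G] {X Y : Subgroup TT} (h : ∀ t ∈ X, ∀ s ∈ Y, t * s * t⁻¹ ∈ Y) :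
    X.map ι ≤ 𝒩 (Y.map ι) := by
  rintro _ ⟨t, ht, rfl⟩
  exact (Mp.of (h t ht)).nm

theorem map_le_c1 {X : Subgroup TT} {u : TT} (h : ∀ t ∈ X, t * u = u * t) :
    X.map ι ≤ 𝒞₁ (ι u) := by
  rintro _ ⟨t, ht, rfl⟩
  rw [mem_centralizer_singleton_iff, ← map_mul, h t ht, map_mul]

theorem two_pow (s : TT) : ι s ^ 2 ^ 3 = 1 := by
  rw [← map_pow, show 2 ^ 3 = 8 from rfl, pow8, map_one]

theorem pg_map (X : Subgroup TT) : IsPGroup 2 (X.map ι) :=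
  isPGroup_iff_forall.mpr (by rintro _ ⟨s, -, rfl⟩; exact ⟨3, two_pow s⟩)

theorem isPGroup_of_odd [Finite G] {H : Subgroup G}
    (h : ∀ y ∈ H, (orderOf y).Coprime 2 → y = 1) : IsPGroup 2 H :=
  isPGroup_iff_forall.mpr fun x hx => by
    obtain ⟨k, hk⟩ := exists_pow_coprime 2 x
    exact ⟨k, h _ (pow_mem hx _) hk⟩

/-- The Sylow 2-subgroup, and `O₂` of the centralizer of the central involution. -/
structure SW (ι : TT →* G) (R : Subgroup G) : Prop where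
  inj : Function.Injective ι
  syl : IsSyl 2 ι.range ⊤
  Rp : IsPGroup 2 R
  Rn : ∀ g, Cj ι g zz zz → g ∈ 𝒩 R
  Rc : ∀ g, Cj ι g zz zz → g ∈ 𝒞 R → g ∈ R

namespace SW

variable [Finite G] {R : Subgroup G} (H : SW ι R) {g y : G} {s t u s' t' : TT}
include H

theorem un (h1 : Cj ι g s t) (h2 : Cj ι g s t') : t = t' := H.inj (Eq.trans (Eq.symm h1) h2)

theorem un' (h1 : Cj ι g s t) (h2 : Cj ι g s' t) : s = s' := H.un h1.symm h2.symm

theorem ne (h1 : Cj ι g s t) (h2 : Cj ι g s' t') (h : s ≠ s') : t ≠ t' :=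
  fun e => h (H.un' h1 (e ▸ h2))

theorem ne1 (h1 : Cj ι g s t) (h : s ≠ 1) : t ≠ 1 := H.ne h1 (Cj.one g) h

theorem sq (h1 : Cj ι g s t) (h : s * s = 1) : t * t = 1 := H.un (h1.mul h1) ((Cj.one g).eq h.symm rfl)

theorem cmm (h1 : Cj ι g s t) (h2 : Cj ι g s' t') (h : s * s' = s' * s) : t * t' = t' * t :=
  H.un (h1.mul h2) (h ▸ h2.mul h1)

theorem mem {X Y : Subgroup TT} (h : Mp ι g X Y) (h1 : Cj ι g s t) (hs : s ∈ X) : t ∈ Y := by
  obtain ⟨t', h2, h3⟩ := h s hs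
  rwa [H.un h1 h3]

theorem fix_of (h : Cj ι (ι t) s s) : t * s = s * t := H.inj (by
  rw [map_mul, map_mul]; exact Cj.fix_iff.mp h)

theorem odd_mul (hy : (orderOf y).Coprime 2) (h1 : Cj ι y s (s * t)) (h2 : Cj ι y t t) :
    Cj ι y s s := by
  have h3 := h1.pow_mul h2 (orderOf y)
  rw [pow_orderOf_eq_one] at h3
  have h4 : s * t ^ orderOf y = s := H.un h3 (by simp [Cj])
  have h5 : t = 1 := eq_one_of_pow_coprime (hy.pow_right 3) (mul_eq_left.mp h4) (pow8 t)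
  simpa [h5] using h1

theorem odd_mul' (hy : (orderOf y).Coprime 2) (h1 : Cj ι y s t) (h2 : Cj ι y (s⁻¹ * t) (s⁻¹ * t)) :
    Cj ι y s s := H.odd_mul hy (h1.eq rfl (by group)) h2

theorem odd_sq (hy : (orderOf y).Coprime 2) (h1 : Cj ι (y * y) s s) : Cj ι y s s := by
  rw [Cj.mem_c1] at h1 ⊢
  exact mem_of_pow_mem hy (by rw [pow_orderOf_eq_one]; exact one_mem _) (by rwa [pow_two])

theorem odd_odd (hy : (orderOf y).Coprime 2) : (orderOf (y * y)).Coprime 2 :=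
  hy.coprime_dvd_left (by rw [← pow_two]; exact orderOf_pow_dvd 2)

theorem R_le : R ≤ ι.range :=
  H.syl.le_of_normalizes H.Rp le_top (by
    rintro _ ⟨t, rfl⟩
    exact H.Rn _ (Cj.of' (by rw [t_zz, mul_inv_cancel_right])))

theorem R_cj (hg : Cj ι g zz zz) (hs : ι s ∈ R) : ∃ t, ι t ∈ R ∧ Cj ι g s t := by
  have h1 := conj_mem_of_mem_normalizer (H.Rn g hg) hs
  obtain ⟨t, ht⟩ := H.R_le h1
  exact ⟨t, ht ▸ h1, ht.symm⟩

theorem eq_one (hy : (orderOf y).Coprime 2) (hz : Cj ι y zz zz)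
    (h : ∀ s, ι s ∈ R → Cj ι y s s) : y = 1 := by
  have h1 : y ∈ R := H.Rc y hz (mem_centralizer_iff.mpr fun r hr => by
    obtain ⟨s, rfl⟩ := H.R_le hr
    exact (Cj.fix_iff.mp (h s hr)).symm)
  exact eq_one_of_pElt_of_coprime (isPGroup_iff_forall.mp H.Rp y h1) hy

theorem cenJ (hy : (orderOf y).Coprime 2) (h : ∀ s ∈ J0, Cj ι y s s) : y = 1 := by
  have hz := h zz (by decide)
  refine H.eq_one hy hz fun s hs => ?_
  by_cases h1 : s ∈ J0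
  · exact h s h1
  obtain ⟨t, -, h2⟩ := H.R_cj hz hs
  have h3 : t ∉ J0 := fun h3 => h1 (H.un' h2 (h t h3) ▸ h3)
  exact H.odd_mul' hy h2 (h _ (j_two s h1 t h3))

/-- An elementary abelian subgroup of order 16 is one of the four. -/
theorem ee_top {p q : Bool} (h : Mp ι g (EE p q) ⊤) : ∃ p' q', Mp ι g (EE p q) (EE p' q') := by
  classical
  choose! φ h0 hφ using h
  have hJ : ∀ s ∈ EE p q, φ s ∈ J0 := fun s hs => by
    by_contra hn
    have h1 := cls12 _ hn (H.sq (hφ s hs) (ee_sq p q s hs))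
    have h2 := Finset.card_le_card_of_injOn (s := Finset.univ.filter (· ∈ EE p q))
      (t := Finset.univ.filter fun w : TT => w * w = 1 ∧ w * φ s = φ s * w) φ
      (fun w hw => by
        have hw' : w ∈ EE p q := by simpa using hw
        simp only [Finset.coe_filter, Finset.mem_univ, true_and, Set.mem_ofPred_eq]
        exact ⟨H.sq (hφ w hw') (ee_sq p q w hw'),
          H.cmm (hφ w hw') (hφ s hs) (ee_cm p q w hw' s hs)⟩)
      (fun v hv w hw e => H.un' (hφ v (by simpa using hv)) (e ▸ hφ w (by simpa using hw)))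
    rw [← card_of, card_EE] at h2
    omega
  have hb : ∀ s ∈ EE p q, ∀ t ∈ EE p q, ((φ s).j = true → (φ t).i = false) ∧
      ((φ s).m = true → (φ t).l = false) := fun s hs t ht =>
    ee_bits _ (hJ s hs) (H.sq (hφ s hs) (ee_sq p q s hs)) _ (hJ t ht)
      (H.sq (hφ t ht) (ee_sq p q t ht)) (H.cmm (hφ s hs) (hφ t ht) (ee_cm p q s hs t ht))
  obtain ⟨p', hp⟩ : ∃ p', ∀ t ∈ EE p q, cond p' (φ t).i (φ t).j = false := by
    by_cases h : ∃ s ∈ EE p q, (φ s).j = true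
    · obtain ⟨s, hs, h⟩ := h
      exact ⟨true, fun t ht => (hb s hs t ht).1 h⟩
    · exact ⟨false, fun t ht => by simpa using fun e => h ⟨t, ht, e⟩⟩
  obtain ⟨q', hq⟩ : ∃ q', ∀ t ∈ EE p q, cond q' (φ t).l (φ t).m = false := by
    by_cases h : ∃ s ∈ EE p q, (φ s).m = true
    · obtain ⟨s, hs, h⟩ := h
      exact ⟨true, fun t ht => (hb s hs t ht).2 h⟩
    · exact ⟨false, fun t ht => by simpa using fun e => h ⟨t, ht, e⟩⟩
  exact ⟨p', q', fun s hs => ⟨_, ee_mem p' q' _ (hJ s hs) (hp s hs) (hq s hs), hφ s hs⟩⟩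

theorem j_top (h : Mp ι g J0 ⊤) : Mp ι g J0 J0 := by
  have h1 : ∀ p, ∀ s ∈ EE p p, s ∈ pre ι g J0 := fun p s hs => by
    obtain ⟨p', q', h2⟩ := H.ee_top (h.mono (ee_J p p))
    obtain ⟨t, ht, e⟩ := h2 s hs
    exact ⟨t, ee_J _ _ t ht, e⟩
  exact fun s hs => mem_of_bits (K := pre ι g J0) hs (fun _ => h1 false _ (by decide))
    (fun _ => h1 true _ (by decide)) (fun _ => h1 true _ (by decide))
    (fun _ => h1 false _ (by decide)) (fun _ => h1 true _ (by decide))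
    (fun _ => h1 true _ (by decide))

theorem aut_aux (h : Mp ι g J0 J0) : ∃ α ∈ J0, ∃ β ∈ J0, ∃ γ ∈ J0, ∃ δ ∈ J0,
    Cj ι g a1 α ∧ Cj ι g b1 β ∧ Cj ι g z1 (cm α β) ∧ Cj ι g z2 (cm γ δ) ∧
    (cc γ.l γ.m δ.l δ.m = true → (α.l = false ∧ α.m = false) ∧ β.l = false ∧ β.m = false) ∧
    (cc γ.i γ.j δ.i δ.j = true → (α.i = false ∧ α.j = false) ∧ β.i = false ∧ β.j = false) ∧
    (cc α.l α.m β.l β.m = true → (γ.l = false ∧ γ.m = false) ∧ δ.l = false ∧ δ.m = false) ∧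
    (cc α.i α.j β.i β.j = true → (γ.i = false ∧ γ.j = false) ∧ δ.i = false ∧ δ.j = false) := by
  obtain ⟨α, hα, e1⟩ := h a1 (by decide)
  obtain ⟨β, hβ, e2⟩ := h b1 (by decide)
  obtain ⟨γ, hγ, e3⟩ := h a2 (by decide)
  obtain ⟨δ, hδ, e4⟩ := h b2 (by decide)
  have c1 := cc_cm _ hα _ hγ (H.cmm e1 e3 (by decide))
  have c2 := cc_cm _ hα _ hδ (H.cmm e1 e4 (by decide))
  have c3 := cc_cm _ hβ _ hγ (H.cmm e2 e3 (by decide))
  have c4 := cc_cm _ hβ _ hδ (H.cmm e2 e4 (by decide))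
  have d1 := cc_cm _ hγ _ hα (H.cmm e3 e1 (by decide))
  have d2 := cc_cm _ hγ _ hβ (H.cmm e3 e2 (by decide))
  have d3 := cc_cm _ hδ _ hα (H.cmm e4 e1 (by decide))
  have d4 := cc_cm _ hδ _ hβ (H.cmm e4 e2 (by decide))
  exact ⟨α, hα, β, hβ, γ, hγ, δ, hδ, e1, e2, (e1.cm e2).eq (by decide) rfl,
    (e3.cm e4).eq (by decide) rfl,
    fun h => ⟨cc_cen _ _ _ _ _ _ h c1.2 c2.2, cc_cen _ _ _ _ _ _ h c3.2 c4.2⟩,
    fun h => ⟨cc_cen _ _ _ _ _ _ h c1.1 c2.1, cc_cen _ _ _ _ _ _ h c3.1 c4.1⟩,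
    fun h => ⟨cc_cen _ _ _ _ _ _ h d1.2 d2.2, cc_cen _ _ _ _ _ _ h d3.2 d4.2⟩,
    fun h => ⟨cc_cen _ _ _ _ _ _ h d1.1 d2.1, cc_cen _ _ _ _ _ _ h d3.1 d4.1⟩⟩

theorem aut_z (h : Mp ι g J0 J0) :
    (Cj ι g z1 z1 ∧ Cj ι g z2 z2) ∨ (Cj ι g z1 z2 ∧ Cj ι g z2 z1) := by
  obtain ⟨α, hα, β, hβ, γ, hγ, δ, hδ, -, -, e1, e2, -, -, k3, k4⟩ := H.aut_aux h
  have n1 := H.ne1 e1 (by decide)
  have n2 := H.ne1 e2 (by decide)
  rw [cm_J _ hα _ hβ] at e1 n1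
  rw [cm_J _ hγ _ hδ] at e2 n2
  have c0 : cc false false false false = false := rfl
  cases h1 : cc α.i α.j β.i β.j <;> cases h2 : cc α.l α.m β.l β.m <;> rw [h1, h2] at e1 n1
  · exact absurd rfl n1
  · obtain ⟨⟨k1, k2⟩, k3, k4⟩ := k3 h2
    rw [k1, k2, k3, k4, c0] at e2 n2
    cases h3 : cc γ.i γ.j δ.i δ.j <;> rw [h3] at e2 n2
    · exact absurd rfl n2
    · exact Or.inr ⟨e1, e2⟩
  · obtain ⟨⟨k1, k2⟩, k3, k4⟩ := k4 h1
    rw [k1, k2, k3, k4, c0] at e2 n2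
    cases h3 : cc γ.l γ.m δ.l δ.m <;> rw [h3] at e2 n2
    · exact absurd rfl n2
    · exact Or.inl ⟨e1, e2⟩
  · obtain ⟨⟨k1, k2⟩, k3, k4'⟩ := k3 h2
    obtain ⟨⟨l1, l2⟩, l3, l4⟩ := k4 h1
    rw [k1, k2, k3, k4', l1, l2, l3, l4, c0] at n2
    exact absurd rfl n2

theorem fix_Z0 (h1 : Cj ι g z1 z1) (h2 : Cj ι g z2 z2) (hs : s ∈ Z0) : Cj ι g s s := by
  rcases z0_cases s hs with rfl | rfl | rfl | rfl
  exacts [Cj.one g, h1, h2, h1.mul h2]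

theorem aut_odd (hy : (orderOf y).Coprime 2) (h : Mp ι y J0 J0) :
    Cj ι y a1 a1 ∧ Cj ι y b1 b1 := by
  obtain ⟨h1, h2⟩ : Cj ι y z1 z1 ∧ Cj ι y z2 z2 := by
    rcases H.aut_z h with h1 | ⟨h1, h2⟩
    · exact h1
    · exact ⟨H.odd_sq hy (h1.trans h2), H.odd_sq hy (h2.trans h1)⟩
  obtain ⟨α, hα, β, hβ, γ, hγ, δ, hδ, e1, e2, e3, e4, k1, -⟩ := H.aut_aux h
  have h3 := H.un e4 h2
  rw [cm_J _ hγ _ hδ] at h3
  obtain ⟨⟨k1, k2⟩, k3, k4⟩ := k1 (congrArg TT.n h3)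
  rcases aut_ab _ hα (H.sq e1 (by decide)) k1 k2 _ hβ (H.sq e2 (by decide)) k3 k4
    (H.ne1 e3 (by decide)) with ⟨m1, m2⟩ | ⟨m1, m2⟩
  · exact ⟨H.odd_mul' hy e1 (H.fix_Z0 h1 h2 m1), H.odd_mul' hy e2 (H.fix_Z0 h1 h2 m2)⟩
  · have f1 := H.fix_Z0 h1 h2 m1
    have f2 := H.fix_Z0 h1 h2 m2
    have g1 : Cj ι y α (β * (b1⁻¹ * α)) := (e2.mul f1).eq (by group) rfl
    have g2 : Cj ι y β (α * (a1⁻¹ * β)) := (e1.mul f2).eq (by group) rfl
    have f3 := f2.mul f1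
    have f4 := f1.mul f2
    exact ⟨H.odd_sq hy (H.odd_mul' (H.odd_odd hy) (e1.trans g1)
        ((f3.trans f3).eq (by group) (by group))),
      H.odd_sq hy (H.odd_mul' (H.odd_odd hy) (e2.trans g2)
        ((f4.trans f4).eq (by group) (by group)))⟩

omit H in
theorem sw {s t s' t' : TT} (h : Cj ι g s t) (e1 : ta * s * ta⁻¹ = s') (e2 : ta * t * ta⁻¹ = t') :
    Cj ι (ι ta * g * (ι ta)⁻¹) s' t' :=
  mul_assoc (ι ta) g _ ▸ ((Cj.of' e1).symm.trans h).trans (Cj.of' e2)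

theorem nJ_odd (hy : (orderOf y).Coprime 2) (h : Mp ι y J0 J0) : y = 1 := by
  obtain ⟨h1, h2⟩ := H.aut_odd hy h
  have h' : Mp ι ((ι ta)⁻¹ * y * ι ta) J0 J0 := by
    rw [← map_inv, mul_assoc]
    exact ((Mp.of (j_nm ta)).trans h).trans (Mp.of (j_nm _))
  obtain ⟨h3, h4⟩ := H.aut_odd (y := (ι ta)⁻¹ * y * ι ta) (by
    have e := orderOf_injective (MulAut.conj (ι ta)⁻¹).toMonoidHom (MulEquiv.injective _) y
    simp only [MulEquiv.coe_toMonoidHom, MulAut.conj_apply, inv_inv] at e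
    rwa [e]) h'
  have e : ι ta * ((ι ta)⁻¹ * y * ι ta) * (ι ta)⁻¹ = y := by group
  have h5 : Cj ι y a2 a2 := e ▸ sw h3 (by decide) (by decide)
  have h6 : Cj ι y b2 b2 := e ▸ sw h4 (by decide) (by decide)
  exact H.cenJ hy fun s hs => mem_of_bits (K := fx ι y) hs (fun _ => h1) (fun _ => h2)
    (fun _ => (h1.cm h2).eq (by decide) (by decide)) (fun _ => h5) (fun _ => h6)
    (fun _ => (h5.cm h6).eq (by decide) (by decide))

/-- `J` is weakly closed and its normalizer is `T`. -/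
theorem mem_T (h : Mp ι g J0 ⊤) : ∃ t, ι t = g := by
  have h1 : IsPGroup 2 (𝒩 (J0.map ι)) :=
    isPGroup_of_odd fun y hy ho => H.nJ_odd ho (Mp.of_nm hy)
  have h2 := H.syl.eq_of_le h1 (by
    rw [MonoidHom.range_eq_map]
    exact map_le_nm fun t _ => j_nm t) le_top
  have h3 := (H.j_top h).nm
  rwa [h2] at h3

theorem le_T {S : Subgroup G} (hS : IsPGroup 2 S) (hJ : J0.map ι ≤ S) : S ≤ ι.range := by
  obtain ⟨k, -, hk⟩ := H.syl.exists_cj_le hS le_top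
  have h1 : k ∈ ι.range := H.mem_T (mp_top ((cj_mono k hJ).trans hk))
  rwa [cj_le_iff, cj_eq_of_mem (inv_mem h1)] at hk

theorem toT {K Q : Subgroup G} (hJ : J0.map ι ≤ K) (hQ : IsPGroup 2 Q) (hQK : Q ≤ K) :
    ∃ c ∈ K, cj c Q ≤ ι.range := by
  obtain ⟨S, hS, h1⟩ := exists_isSyl_ge (pg_map J0) hJ
  obtain ⟨c, hc, h2⟩ := hS.exists_cj_le hQ hQK
  exact ⟨c, hc, h2.trans (H.le_T hS.isPGroup h1)⟩

theorem wk {K : Subgroup G} (hJ : J0.map ι ≤ K) (h : cj g (J0.map ι) ≤ K) :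
    ∃ c ∈ K, ∃ t, ι t = c * g := by
  obtain ⟨c, hc, h1⟩ := H.toT hJ (isPGroup_cj (pg_map J0) g) h
  exact ⟨c, hc, H.mem_T (mp_top (by rwa [cj_mul]))⟩

theorem ee_wk {p q : Bool} (h : Mp ι g (EE p q) ⊤) :
    Mp ι g (EE p q) (EE p q) ∨ Mp ι g (EE p q) (EE q p) := by
  obtain ⟨p', q', h1⟩ := H.ee_top h
  have h2 : cj g ((EE p q).map ι) = (EE p' q').map ι :=
    eq_of_le_of_card_ge (mp_iff.mp h1) (by
      rw [card_cj, card_map_of_injective H.inj, card_map_of_injective H.inj, card_EE, card_EE])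
  obtain ⟨c, hc, t, ht⟩ := H.wk (g := g) (K := 𝒩 ((EE p' q').map ι)) (map_le_nm (ee_nm p' q')) (by
    rw [← h2, ← cj_normalizer]
    exact cj_mono g (map_le_nm (ee_nm p q)))
  have h3 := h1.trans (Mp.of_nm hc)
  rw [← ht] at h3
  rcases wt_cj p q p' q' t (H.mem h3 (Cj.of t _) (wt_mem p q)) with ⟨rfl, rfl⟩ | ⟨rfl, rfl⟩
  · exact Or.inl h1
  · exact Or.inr h1

theorem ee_wk' {p : Bool} (h : Mp ι g (EE p p) ⊤) : Mp ι g (EE p p) (EE p p) :=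
  (H.ee_wk h).elim id id

/-- Extremal conjugation to an element of the centre of `J`. -/
theorem ext (h : Cj ι g s u) (hu : ∀ t ∈ J0, t * u = u * t) {X : Subgroup TT}
    (hX : ∀ t ∈ X, t * s = s * t) : ∃ k, Cj ι k s u ∧ Mp ι k X ⊤ := by
  obtain ⟨c, hc, h1⟩ := H.toT (map_le_c1 hu) (isPGroup_cj (pg_map (ι := ι) X) g) (by
    rw [cj_le_iff_forall]
    rintro _ ⟨t, ht, rfl⟩
    rw [mem_centralizer_singleton_iff, ← h, conj_mul, conj_mul, ← map_mul, hX t ht, map_mul])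
  exact ⟨c * g, h.trans (Cj.mem_c1.mpr hc), mp_top (by rwa [cj_mul])⟩

theorem not_z : ¬ Cj ι g zz z1 := fun h => by
  obtain ⟨k, h1, h2⟩ := H.ext h j_z1 (X := J0) fun t _ => t_zz t
  obtain ⟨t, rfl⟩ := H.mem_T h2
  exact absurd (H.un h1 (Cj.of' (by rw [t_zz, mul_inv_cancel_right]))) (by decide)

end SW

end Cfsg.H8.QW
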