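import Cfsg.Agent.H8.QW2
import Cfsg.Agent.H4.TT

/-!
Fusion of involutions when the Sylow 2-subgroup `D₈ ≀ Z₂` lies in a subgroup `S₄ ≀ Z₂`.
-/

set_option autoImplicit false
set_option linter.unusedSectionVars false

namespace Cfsg.H8.QW

open Subgroup Cfsg.L0

local notation "𝒩" X:max => Subgroup.normalizer (SetLike.coe X)
local notation "𝒞" X:max => Subgroup.centralizer (SetLike.coe X)
local notation "𝒞₁" x:max => Subgroup.centralizer (singleton x : Set _)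

variable {G : Type*} [Group G] {ι : TT →* G}

/-- Conjugacy in `G`. -/
def Cn (ι : TT →* G) (s t : TT) : Prop := ∃ g, Cj ι g s t

theorem Cn.symm {s t : TT} (h : Cn ι s t) : Cn ι t s := h.elim fun _ h => ⟨_, h.symm⟩
theorem Cn.trans {s t u : TT} (h : Cn ι s t) (h' : Cn ι t u) : Cn ι s u :=
  h.elim fun _ h => h'.elim fun _ h' => ⟨_, h.trans h'⟩
theorem Cn.rfl {s : TT} : Cn ι s s := ⟨1, by simp [Cj]⟩
theorem Cj.cn {g : G} {s t : TT} (h : Cj ι g s t) : Cn ι s t := ⟨g, h⟩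
theorem Cn.of (t : TT) {s u : TT} (h : t * s * t⁻¹ = u) : Cn ι s u := ⟨_, Cj.of' h⟩

/-- The element of order three of the first factor. -/
structure FW (ι : TT →* G) (R : Subgroup G) (x : G) : Prop extends SW ι R where
  n2 : ∀ N : Subgroup G, N.index ≠ 2
  xz : Cj ι x z1 a1
  xa : Cj ι x a1 (a1 * z1)
  xa2 : Cj ι x a2 a2
  xb2 : Cj ι x b2 b2

namespace FW

variable [Finite G] {R : Subgroup G} {x : G} (H : FW ι R x) {g y : G} {s t u s' t' : TT}
include H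

theorem xz2 : Cj ι x z2 z2 := (H.xa2.cm H.xb2).eq (by decide) (by decide)

theorem wz : Cj ι (ι ta * x * (ι ta)⁻¹) z2 a2 := SW.sw H.xz (by decide) (by decide)
theorem wa : Cj ι (ι ta * x * (ι ta)⁻¹) a2 (a2 * z2) := SW.sw H.xa (by decide) (by decide)
theorem wa1 : Cj ι (ι ta * x * (ι ta)⁻¹) a1 a1 := SW.sw H.xa2 (by decide) (by decide)
theorem wb1 : Cj ι (ι ta * x * (ι ta)⁻¹) b1 b1 := SW.sw H.xb2 (by decide) (by decide)
theorem wz1 : Cj ι (ι ta * x * (ι ta)⁻¹) z1 z1 := SW.sw H.xz2 (by decide) (by decide)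

theorem cn_rp (h : s * s = 1) : Cn ι s (rp s) := by
  obtain ⟨t, h | ⟨h, e⟩ | ⟨h, e⟩ | ⟨h, e⟩ | ⟨h, e⟩⟩ := rp_cj s h
  · exact Cn.of t h
  · exact e ▸ (Cn.of t h).trans H.xz.cn.symm
  · exact e ▸ (Cn.of t h).trans (H.xz.mul H.xz2).cn.symm
  · exact e ▸ ((Cn.of t h).trans (H.wa1.mul H.wz).cn.symm).trans (H.xz.mul H.xz2).cn.symm
  · exact e ▸ (Cn.of t h).trans (H.wb1.mul H.wz).cn.symm

theorem nz (h1 : Cn ι s z1) (h2 : Cn ι s zz) : False := by
  obtain ⟨g, h⟩ := h2.symm.trans h1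
  exact H.not_z h

/-- An involution in the class of `z` does not have a representative in the class of `z₁`. -/
theorem rp_z (h1 : Cn ι s zz) (h2 : Cn ι t z1) : rp s ≠ t := fun e => by
  obtain ⟨g, h⟩ := h1.symm
  exact H.nz ((H.cn_rp (H.sq h (by decide))).trans (e ▸ h2)) h1

theorem rp_y (h1 : Cn ι s z1) (h2 : Cn ι t zz) : rp s ≠ t := fun e => by
  obtain ⟨g, h⟩ := h1.symm
  exact H.nz h1 ((H.cn_rp (H.sq h (by decide))).trans (e ▸ h2))

theorem thompson {X Y : Subgroup TT} (hX : X.index = 2) (hs : s * s = 1)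
    (hY : ∀ t ∈ Y, t * s = s * t) : ∃ g u, u ∈ X ∧ Cj ι g s u ∧ Mp ι g Y ⊤ := by
  obtain ⟨g, ⟨u, hu, h1⟩, h2⟩ := H4.exists_conj_mem_extremal H.n2 (M := X.map ι) (S := ι.range)
    (T := Y.map ι) (map_le_range ι X) (by
      rw [MonoidHom.range_eq_map, relIndex_map_map_of_injective _ _ H.inj, relIndex_top_right, hX])
    (by
      have := H.syl.not_dvd
      rw [relIndex_top_right] at this
      exact Nat.odd_iff.mpr (by omega)) (t := ι s) (by rw [pow_two, ← map_mul, hs, map_one])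
    (pg_map Y) (by
      rintro _ ⟨t, ht, rfl⟩
      rw [← map_mul, hY t ht, map_mul])
  refine ⟨g⁻¹, u, hu, by rw [Cj, inv_inv, h1], fun t ht => ?_⟩
  obtain ⟨v, hv⟩ := h2 _ ⟨t, ht, rfl⟩
  exact ⟨v, mem_top _, by rw [Cj, inv_inv, hv]⟩

theorem b_first : ∃ g, Mp ι g (EE true true) (EE true true) ∧
    Mp ι g (EE true false) (EE true false) ∧ Cj ι g z2 z2 ∧ (Cj ι g b1 z1 ∨ Cj ι g b1 zz) := by
  obtain ⟨g, u, hu, h1, h2, h3⟩ : ∃ g u, u ∈ T0 ∧ Cj ι g b1 u ∧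
      Mp ι g (EE true true) (EE true true) ∧ Mp ι g (EE true false) (EE true false) := by
    obtain ⟨g, u, hu, h1, h2⟩ := H.thompson index_T0 (s := b1) (by decide) p_cm
    have h3 := H.ee_wk' (h2.mono b_le_P)
    rcases H.ee_wk (h2.mono f_le_P) with h4 | h4
    · exact ⟨g, u, hu, h1, h3, h4⟩
    · exact ⟨_, _, t0_nm u hu, h1.trans (Cj.of ta u), h3.trans (Mp.of (ee_sw _ _)),
        h4.trans (Mp.of (ee_sw _ _))⟩
  obtain ⟨α, hα, e1⟩ := h3 a2 (by decide)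
  obtain ⟨β, hβ, e2⟩ := h2 b2 (by decide)
  have e3 : Cj ι g z2 (cm α β) := (e1.cm e2).eq (by decide) rfl
  have e4 : Cj ι g z2 z2 := e3.eq rfl ((cm_FB α hα β hβ).resolve_left (H.ne1 e3 (by decide)))
  refine ⟨g, h2, h3, e4, ?_⟩
  rcases bft u (H.mem h2 h1 (by decide)) (H.mem h3 h1 (by decide)) hu (H.ne1 h1 (by decide))
    (H.ne h1 e4 (by decide)) with rfl | rfl
  exacts [Or.inl h1, Or.inr h1]

theorem w_F : Mp ι (ι ta * x * (ι ta)⁻¹) (EE true false) (EE true false) := fun s hs => by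
  have h : ∀ s ∈ EE true false, s.i = false ∧ s.m = false := by decide +kernel
  exact mem_of_bits (K := pre ι _ (EE true false)) (ee_J _ _ s hs)
    (fun e => by simp [(h s hs).1] at e) (fun _ => ⟨_, by decide, H.wb1⟩)
    (fun _ => ⟨_, by decide, H.wz1⟩) (fun _ => ⟨_, by decide, H.wa⟩)
    (fun e => by simp [(h s hs).2] at e) (fun _ => ⟨_, by decide, H.wz⟩)

theorem not_F (h1 : Mp ι g (EE true false) (EE true false)) (h2 : Cj ι g z1 z2) : False := by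
  obtain ⟨c, hc, t, ht⟩ := H.wk (g := g) (K := 𝒩 ((EE true false).map ι) ⊓ 𝒞₁ (ι z2))
    (le_inf (map_le_nm (ee_nm _ _)) (map_le_c1 j_z2)) (le_inf
      (cj_le_of_le (map_le_nm (ee_nm _ _)) (le_normalizer h1.nm)) (by
        rw [cj_le_iff_forall]
        rintro _ ⟨t, ht, rfl⟩
        rw [mem_centralizer_singleton_iff, ← h2, conj_mul, conj_mul, ← map_mul, j_z1 t ht,
          map_mul]))
  have h3 := h1.trans (Mp.of_nm hc.1)
  have h4 := h2.trans (Cj.mem_c1.mpr hc.2)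
  rw [← ht] at h3 h4
  exact f_fin t (H.un (Cj.of t z1) h4) (H.mem h3 (Cj.of t _) (by decide))

theorem not_bz (h1 : Mp ι g (EE true true) (EE true true))
    (h2 : Mp ι g (EE true false) (EE true false)) (h3 : Cj ι g z2 z2) (h4 : Cj ι g b1 zz) :
    False := by
  have key : ∀ g, Mp ι g (EE true false) (EE true false) → Cj ι g z2 z2 → Cj ι g b1 zz →
      Cj ι g (b1 * z1) b1 → False := by
    intro g h2 h3 h4 h5
    have y1 : Cn ι bz z1 := ((h4.mul h3).eq (by decide) (by decide)).cn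
    have h6 : Cj ι g z1 (b1 * z1 * z2) := (h4.mul h5).eq (by decide) (by decide)
    have h7 : Cj ι g zz (b1 * z1) := (h6.mul h3).eq (by decide) (by decide)
    obtain ⟨c, hc, e⟩ := h2 (z1 * a2) (by decide)
    have zc : Cn ι c zz := e.cn.symm.trans (H.cn_rp (by decide))
    have h8 : Cj ι (g * ((ι ta * x * (ι ta)⁻¹) * g)) z1 (zz * c) :=
      (h6.trans ((H.wb1.mul H.wz1).mul H.wz)).trans ((h4.mul e).eq (by decide) rfl)
    have h9 := (h2.trans H.w_F).trans h2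
    rcases f_z c hc (H.ne1 e (by decide)) (H.ne e h4 (by decide)) (H.ne e h5 (by decide))
      (H.ne e h7 (by decide)) (H.rp_z zc Cn.rfl) (H.rp_z zc y1) with rfl | rfl
    · exact H.not_F (h9.trans H.w_F) (h8.trans ((H.wa.mul H.wz).eq (by decide) (by decide)))
    · exact H.not_F ((h9.trans H.w_F).trans H.w_F) ((h8.trans (H.wa.eq (by decide) rfl)).trans
        ((H.wa.mul H.wz).eq rfl (by decide)))
  have y1 : Cn ι bz z1 := ((h4.mul h3).eq (by decide) (by decide)).cn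
  obtain ⟨v, hv, e⟩ := h1 (b1 * z1) (by decide)
  have zv : Cn ι v zz := (e.cn.symm.trans (Cn.of a1 (by decide))).trans h4.cn
  rcases bf_z v hv (H.mem h2 e (by decide)) (H.ne1 e (by decide)) (H.ne e h4 (by decide))
    (H.rp_z zv Cn.rfl) (H.rp_z zv y1) with rfl | rfl
  · exact key g h2 h3 h4 e
  · exact key (ι a1 * g) (h2.trans (Mp.of (ee_nm _ _ a1 (by decide))))
      (h3.trans (Cj.of' (by decide))) (h4.trans (Cj.of' (by decide)))
      (e.trans (Cj.of' (by decide)))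

theorem exY : ∃ g, Mp ι g (EE true true) (EE true true) ∧ Cj ι g a2 a2 ∧ Cj ι g z2 z2 ∧
    Cj ι g b1 z1 ∧ Cj ι g z1 b1 := by
  obtain ⟨g, h1, h2, h3, h4, h5⟩ : ∃ g, Mp ι g (EE true true) (EE true true) ∧
      Mp ι g (EE true false) (EE true false) ∧ Cj ι g z2 z2 ∧ Cj ι g b1 z1 ∧ Cj ι g z1 b1 := by
    obtain ⟨g, h1, h2, h3, h4 | h4⟩ := H.b_first
    swap
    · exact (H.not_bz h1 h2 h3 h4).elim
    have y1 : Cn ι bz zz := ((h4.mul h3).eq (by decide) (by decide)).cn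
    obtain ⟨v, hv, e⟩ := h1 z1 (by decide)
    rcases bf_y v hv (H.mem h2 e (by decide)) (H.ne1 e (by decide)) (H.ne e h4 (by decide))
      (H.ne e h3 (by decide)) (H.rp_y e.cn.symm Cn.rfl) (H.rp_y e.cn.symm y1) with rfl | rfl
    · exact ⟨g, h1, h2, h3, h4, e⟩
    · exact ⟨ι a1 * g, h1.trans (Mp.of (ee_nm _ _ a1 (by decide))),
        h2.trans (Mp.of (ee_nm _ _ a1 (by decide))), h3.trans (Cj.of' (by decide)),
        h4.trans (Cj.of' (by decide)), e.trans (Cj.of' (by decide))⟩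
  have y1 : Cn ι bz zz := ((h4.mul h3).eq (by decide) (by decide)).cn
  obtain ⟨v, hv, e⟩ := h2 a2 (by decide)
  have yv : Cn ι v z1 := e.cn.symm.trans (H.cn_rp (by decide))
  rcases f_y v hv (H.ne1 e (by decide)) (H.ne e h4 (by decide)) (H.ne e h3 (by decide))
    (H.ne e h5 (by decide)) (H.ne e ((h4.mul h5).eq rfl (by decide : _ = b1 * z1)) (by decide))
    (H.rp_y yv Cn.rfl) (H.rp_y yv y1) with rfl | rfl
  · exact ⟨g, h1, e, h3, h4, h5⟩
  · exact ⟨ι b2 * g, h1.trans (Mp.of (ee_nm _ _ b2 (by decide))),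
      e.trans (Cj.of' (by decide)), h3.trans (Cj.of' (by decide)),
      h4.trans (Cj.of' (by decide)), h5.trans (Cj.of' (by decide))⟩

theorem b_y : Cn ι b1 z1 := H.exY.elim fun _ h => h.2.2.2.1.cn
theorem bz_z : Cn ι bz zz :=
  H.exY.elim fun _ h => ((h.2.2.2.1.mul h.2.2.1).eq (by decide) (by decide)).cn

theorem bb_yz : Cn ι bb z1 ∨ Cn ι bb zz := by
  obtain ⟨g, h1, h2, h3, h4, -⟩ := H.exY
  obtain ⟨v, hv, e⟩ := h1 b2 (by decide)
  have e1 : Cj ι g bb (z1 * v) := h4.mul e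
  rcases b_bb v hv (H.un (h2.cm e) (h3.eq (by decide) rfl)) with k | k | k
  · exact Or.inl (((k ▸ H.cn_rp (H.sq e (by decide))).symm.trans e.cn.symm).trans
      ((Cn.of ta (by decide)).trans H.b_y))
  · exact Or.inr (e1.cn.trans ((k ▸ H.cn_rp (H.sq e1 (by decide))).trans H.bz_z))
  · exact Or.inl (e1.cn.trans ((k ▸ H.cn_rp (H.sq e1 (by decide))).trans H.b_y))

theorem j_yz (hs : s ∈ J0) (h1 : s * s = 1) (h2 : s ≠ 1) : Cn ι s z1 ∨ Cn ι s zz := by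
  have h := H.cn_rp h1
  rcases rp_J s hs h2 with k | k | k | k | k <;> rw [k] at h
  · exact Or.inl h
  · exact Or.inr h
  · exact Or.inl (h.trans H.b_y)
  · exact Or.inr (h.trans H.bz_z)
  · exact H.bb_yz.imp h.trans h.trans

theorem ta_z : Cn ι ta zz := by
  obtain ⟨g, u, hu, h1, -⟩ := H.thompson index_J0 (s := ta) (Y := ⊥) (by decide)
    fun t ht => by rw [mem_bot.mp ht, one_mul, mul_one]
  rcases H.j_yz hu (H.sq h1 (by decide)) (H.ne1 h1 (by decide)) with h2 | h2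
  swap
  · exact h1.cn.trans h2
  exfalso
  obtain ⟨g, h3⟩ := h1.cn.trans h2
  obtain ⟨k, h4, h5⟩ := H.ext h3 j_z1 ct_cm
  obtain ⟨α, -, e1⟩ := h5 (a1 * a2) (by decide)
  obtain ⟨β, -, e2⟩ := h5 bb (by decide)
  have hα := cen_z1 α (H.cmm e1 h4 (by decide))
  have hβ := cen_z1 β (H.cmm e2 h4 (by decide))
  have e3 : Cj ι k zz (cm α β) := (e1.cm e2).eq (by decide) rfl
  have e4 : cm α β = zz := by
    rcases z0_cases _ (cm_Z0 α hα β hβ) with k | k | k | k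
    · exact absurd k (H.ne1 e3 (by decide))
    · exact (H.nz Cn.rfl (k ▸ e3.cn.symm)).elim
    · exact (H.nz (Cn.of ta (by decide)) (k ▸ e3.cn.symm)).elim
    · exact k
  refine H.nz (s := α) ?_ (e1.cn.symm.trans (H.cn_rp (by decide)))
  exact ((Cn.of _ (cm_zz α hα β hβ e4)).trans (h4.mul e1).cn.symm).trans
    ((Cn.of a1 (by decide)).trans h3.cn)

theorem ta_J : ∃ k, Cj ι k zz zz ∧ ∃ j ∈ J0, Cj ι k ta j := by
  obtain ⟨g, h1⟩ := H.ta_z
  obtain ⟨k, h2, h3⟩ := H.ext h1 (fun t _ => t_zz t) ct_cm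
  obtain ⟨w, -, e⟩ := h3 (a1 * b1 * a2 * b2) (by decide)
  have e1 : Cj ι k zz (w * w) := (e.mul e).eq (by decide) rfl
  obtain ⟨p, hp⟩ : ∃ p, w * w ∈ EE p p := by
    rcases sq_ee w (H.sq e1 (by decide)) with h | h
    exacts [⟨_, h⟩, ⟨_, h⟩]
  obtain ⟨h, h4, h5⟩ := H.ext e1.symm (fun t _ => t_zz t) fun t ht => ee_cm p p t ht _ hp
  obtain ⟨j, hj, e2⟩ := H.ee_wk' h5 zz (zz_ee p)
  exact ⟨_, e1.trans h4, j, ee_J _ _ j hj, h2.trans e2⟩

omit H in
/-- The elements of `C(z)` acting trivially on `R / ⟨z⟩`. -/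
def QQ (ι : TT →* G) (R : Subgroup G) : Subgroup G where
  carrier := {g | Cj ι g zz zz ∧ ∀ r ∈ R, g * r * g⁻¹ = r ∨ g * r * g⁻¹ = r * ι zz}
  one_mem' := ⟨by simp [Cj], fun r _ => Or.inl (by simp)⟩
  mul_mem' := fun {a b} ⟨h1, h2⟩ ⟨h3, h4⟩ => ⟨h3.trans h1, fun r hr => by
    have e : a * b * r * (a * b)⁻¹ = a * (b * r * b⁻¹) * a⁻¹ := by group
    have e2 : ι zz * ι zz = 1 := by rw [← map_mul]; exact map_one ι
    rcases h4 r hr with k | k <;> rw [e, k]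
    · exact h2 r hr
    · rw [← conj_mul, h1]
      rcases h2 r hr with l | l <;> rw [l]
      · exact Or.inr rfl
      · exact Or.inl (by rw [mul_assoc, e2, mul_one])⟩
  inv_mem' := fun {a} ⟨h1, h2⟩ => ⟨h1.symm, fun r hr => by
    have e2 : ι zz * ι zz = 1 := by rw [← map_mul]; exact map_one ι
    have h3 : a⁻¹ * ι zz * a⁻¹⁻¹ = ι zz := h1.symm
    rcases h2 r hr with k | k
    · exact Or.inl (by rw [← k]; simp only [mul_assoc, inv_inv, inv_mul_cancel_left,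
        inv_mul_cancel, mul_one]; rw [← mul_assoc, k])
    · refine Or.inr ?_
      have : r = a * r * a⁻¹ * ι zz := by rw [k, mul_assoc, e2, mul_one]
      calc a⁻¹ * r * a⁻¹⁻¹ = a⁻¹ * (a * r * a⁻¹ * ι zz) * a⁻¹⁻¹ := by rw [← this]
        _ = r * (a⁻¹ * ι zz * a⁻¹⁻¹) := by group
        _ = _ := by rw [h3]⟩

theorem QQ_nm (hg : Cj ι g zz zz) : g ∈ 𝒩 (QQ ι R) :=
  mem_normalizer_of_forall fun a ⟨h1, h2⟩ => ⟨by
    rw [mul_assoc]; exact (hg.symm.trans h1).trans hg, fun r hr => by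
    have e : g * a * g⁻¹ * r * (g * a * g⁻¹)⁻¹ = g * (a * (g⁻¹ * r * g) * a⁻¹) * g⁻¹ := by group
    rcases h2 _ (conj_mem_of_mem_normalizer' (H.Rn g hg) hr) with k | k <;> rw [e, k]
    · exact Or.inl (by group)
    · exact Or.inr (by rw [← conj_mul, hg]; group)⟩

theorem QQ_le : QQ ι R ≤ ι.range := by
  refine H.syl.le_of_normalizes (isPGroup_iff_forall.mpr fun a ⟨h1, h2⟩ => ?_) le_top ?_
  · have e2 : ι zz * ι zz = 1 := by rw [← map_mul]; exact map_one ι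
    have h3 : a * a ∈ R := H.Rc _ (h1.trans h1) (mem_centralizer_iff.mpr fun r hr => by
      have e : a * a * r * (a * a)⁻¹ = a * (a * r * a⁻¹) * a⁻¹ := by group
      rw [eq_comm, ← mul_inv_eq_iff_eq_mul, e]
      rcases h2 r hr with k | k
      · rw [k, k]
      · rw [k, ← conj_mul, k, h1, mul_assoc, e2, mul_one])
    obtain ⟨k, hk⟩ := isPGroup_iff_forall.mp H.Rp _ h3
    exact ⟨k + 1, by rw [pow_succ', pow_mul, pow_two, hk]⟩
  · rintro _ ⟨t, rfl⟩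
    exact H.QQ_nm (Cj.of' (by rw [t_zz, mul_inv_cancel_right]))

theorem gz_z1 (hg : Cj ι g zz zz) : ∃ u, Cj ι g z1 u := by
  have h1 : ι z1 ∈ QQ ι R := ⟨Cj.of' (by decide), fun r hr => by
    obtain ⟨t, rfl⟩ := H.R_le hr
    rcases cm_z1 t with k | k
    · exact Or.inl (Cj.of' k)
    · exact Or.inr (by rw [← map_mul ι t]; exact Cj.of' k)⟩
  obtain ⟨u, hu⟩ := H.QQ_le (conj_mem_of_mem_normalizer (H.QQ_nm hg) h1)
  exact ⟨u, hu.symm⟩

theorem ex_bb : ∃ k, Cj ι k zz zz ∧ Cj ι k z1 bb := by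
  obtain ⟨k, h1, j, hj, h2⟩ := H.ta_J
  obtain ⟨u, h3⟩ := H.gz_z1 h1.symm
  rcases ct_inv u (H.sq h3 (by decide)) (H.cmm h2.symm h3 (j_z1 j hj)) (H.ne1 h3 (by decide))
    (H.rp_y h3.cn.symm Cn.rfl) (H.rp_y h3.cn.symm H.ta_z) with rfl | e
  · exact ⟨_, h1.symm, h3⟩
  · exact ⟨_, h1.symm.trans (Cj.of' (t := a1 * a2) (by decide)), h3.trans (Cj.of' e)⟩

theorem bb_y : Cn ι bb z1 := H.ex_bb.elim fun _ h => h.2.cn.symm

theorem odd_Z (hy : (orderOf y).Coprime 2) (h1 : Cj ι y z1 z1) (h2 : Cj ι y z2 z2) : y = 1 := by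
  have hz : Cj ι y zz zz := h1.mul h2
  have h3 : Cj ι y bb bb := by
    obtain ⟨k, k1, k2⟩ := H.ex_bb
    obtain ⟨u, e⟩ := H.gz_z1 (k1.trans hz)
    have e1 : Cj ι y bb u := by simpa using k2.symm.trans e
    have e2 : Cn ι (u * zz) z1 := (e.mul (k1.trans hz)).cn.symm.trans (Cn.of ta (by decide))
    exact H.odd_mul' hy e1 (H.fix_Z0 h1 h2 (gz_cj u (H.sq e (by decide)) (H.ne1 e (by decide))
      (H.rp_y e.cn.symm Cn.rfl) (H.rp_y e.cn.symm H.ta_z) (H.rp_y e.cn.symm H.bz_z)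
      (H.rp_y e2 Cn.rfl) (H.rp_y e2 H.bz_z) (H.ne e1 h1 (by decide)) (H.ne e1 h2 (by decide))))
  have hU : ∀ s ∈ U0, Cj ι y s s := fun s hs => by
    rcases u_cases s hs with k | k
    · exact H.fix_Z0 h1 h2 k
    · exact (h3.mul (H.fix_Z0 h1 h2 k)).eq (by group) (by group)
  have hB : ∀ w, ι w ∈ R → w ∈ EE true true → Cj ι y w w := fun w hw hb => by
    by_cases k : w ∈ U0
    · exact hU w k
    obtain ⟨v, -, e⟩ := H.R_cj hz hw
    exact H.odd_mul' hy e (hU _ (b_two w hb k v (cen_U v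
      (H.cmm e h1 (b_U w hb _ (by decide))) (H.cmm e h3 (b_U w hb _ (by decide))))
      fun l => k (H.un' e (hU v l) ▸ l)))
  refine H.eq_one hy hz fun r hr => ?_
  obtain ⟨r', hr', e⟩ := H.R_cj hz hr
  have hc : ∀ s ∈ U0, r⁻¹ * r' * s = s * (r⁻¹ * r') := fun s hs => by
    have := H.un ((e.mul (hU s hs)).mul e.inv) (hU _ (u_nm r s hs))
    calc r⁻¹ * r' * s = r⁻¹ * (r' * s * r'⁻¹) * r' := by group
      _ = _ := by rw [this]; group
  exact H.odd_mul' hy e (hB _ (by rw [map_mul, map_inv]; exact mul_mem (inv_mem hr) hr')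
    (cen_U _ (hc _ (by decide)) (hc _ (by decide))))

/-- `C(Z(J)) = J`. -/
theorem cen_Z (h1 : Cj ι g z1 z1) (h2 : Cj ι g z2 z2) : ∃ t ∈ J0, ι t = g := by
  have h3 : IsPGroup 2 ↥(𝒞₁ (ι z1) ⊓ 𝒞₁ (ι z2)) := isPGroup_of_odd fun y hy ho =>
    H.odd_Z ho (Cj.mem_c1.mpr hy.1) (Cj.mem_c1.mpr hy.2)
  obtain ⟨t, rfl⟩ := H.le_T h3 (le_inf (map_le_c1 j_z1) (map_le_c1 j_z2))
    (mem_inf.mpr ⟨Cj.mem_c1.mp h1, Cj.mem_c1.mp h2⟩)
  exact ⟨t, cen_z1 t (H.fix_of h1), rfl⟩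

end FW

end Cfsg.H8.QW
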