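import Cfsg.Agent.H8.QW3
import Cfsg.Agent.H4.Dih8c

/-!
The centralizer of the alternating subgroup of the first factor: the final contradiction.
-/

set_option autoImplicit false
set_option linter.unusedSectionVars false

namespace Cfsg.H8.QW

open Subgroup Cfsg.L0 Equiv DihedralGroup

local notation "𝒩" X:max => Subgroup.normalizer (SetLike.coe X)
local notation "𝒞" X:max => Subgroup.centralizer (SetLike.coe X)
local notation "𝒞₁" x:max => Subgroup.centralizer (singleton x : Set _)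

variable {G : Type*} [Group G] {ι : TT →* G}

def pa : Perm (Fin 4) := swap 0 2 * swap 1 3
def pb : Perm (Fin 4) := swap 0 1
def pz : Perm (Fin 4) := swap 0 1 * swap 2 3
def px : Perm (Fin 4) := swap 0 1 * swap 0 2

def A1 : Subgroup TT := mkS (fun s => !s.e && !s.j && !s.l && !s.m && !s.n) (by decide)
  (by decide +kernel) (by decide +kernel)

instance instDecA1 : DecidablePred (· ∈ A1) :=
  fun s => inferInstanceAs (Decidable ((!s.e && !s.j && !s.l && !s.m && !s.n) = true))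

theorem a1_cases : ∀ s ∈ A1, s = 1 ∨ s = a1 ∨ s = z1 ∨ s = a1 * z1 := by decide +kernel

theorem orbit_le [Finite G] {C K : Subgroup G} {u : G} (hK : K ≤ C) (hu : K ≤ 𝒞₁ u)
    (F : Finset G) (hF : ∀ v ∈ F, ∃ c ∈ C, c * u * c⁻¹ = v) :
    F.card * Nat.card K ≤ Nat.card C := by
  choose! φ h1 h2 using hF
  have e : ∀ (v : F) (k : K), φ v * k * u * (φ v * k)⁻¹ = v := fun v k => by
    rw [mul_assoc (φ v), mem_centralizer_singleton_iff.mp (hu k.2)]
    exact Eq.trans (by group) (h2 v v.2)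
  rw [← Nat.card_eq_finsetCard, ← Nat.card_prod]
  refine Nat.card_le_card_of_injective (β := C)
    (fun p : F × K => ⟨φ p.1 * p.2, mul_mem (h1 _ p.1.2) (hK p.2.2)⟩) ?_
  rintro ⟨v, k⟩ ⟨w, l⟩ h
  have h3 : φ v * k = φ w * l := congrArg Subtype.val h
  have h4 : v = w := Subtype.ext (by rw [← e v k, h3, e])
  subst h4
  rw [Subtype.ext (mul_left_cancel h3 : (k : G) = l)]

/-- The whole configuration. -/
structure EW (ι : TT →* G) (R : Subgroup G) (x : G) (θ : Perm (Fin 4) →* G) : Prop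
    extends FW ι R x where
  x3 : x ^ 3 = 1
  bx : ι b1 * x * (ι b1)⁻¹ = x⁻¹
  ti : Function.Injective θ
  ta' : θ pa = ι a2
  tb : θ pb = ι b2
  ca : ∀ q, Cj ι (θ q) a1 a1
  cb : ∀ q, Cj ι (θ q) b1 b1
  cx : ∀ q, θ q * x = x * θ q
  qt : ∀ A : Subgroup G, A ≤ 𝒩 (A1.map ι) → IsMulCommutative A → (∀ a ∈ A, a ^ 3 = 1) →
    Nat.card A ≤ 9

/-- The centralizer of the alternating group of the first factor. -/
def CC (ι : TT →* G) (x : G) : Subgroup G := 𝒞₁ (ι a1) ⊓ 𝒞₁ (ι z1) ⊓ 𝒞₁ x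

theorem mem_CC {x g : G} : g ∈ CC ι x ↔ Cj ι g a1 a1 ∧ Cj ι g z1 z1 ∧ g * x = x * g := by
  rw [CC, mem_inf, mem_inf, ← Cj.mem_c1, ← Cj.mem_c1, mem_centralizer_singleton_iff, and_assoc]

namespace EW

variable [Finite G] {R : Subgroup G} {x : G} {θ : Perm (Fin 4) →* G} (H : EW ι R x θ)
  {g y : G} {s t : TT}
include H

theorem tz : θ pz = ι z2 := by
  rw [show pz = pa * pb * pa⁻¹ * pb⁻¹ by decide, show z2 = a2 * b2 * a2⁻¹ * b2⁻¹ by decide]
  simp only [map_mul, map_inv, H.ta', H.tb]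

theorem x_sg (hs : s ∈ K0) : Cj ι x s (sg s) := by
  let K : Subgroup TT :=
    { carrier := {s | s ∈ K0 ∧ Cj ι x s (sg s)}
      one_mem' := ⟨one_mem _, Cj.one x⟩
      mul_mem' := fun ⟨h1, h2⟩ ⟨h3, h4⟩ =>
        ⟨mul_mem h1 h3, (h2.mul h4).eq rfl (sg_mul _ h1 _ h3).symm⟩
      inv_mem' := fun ⟨h1, h2⟩ => ⟨inv_mem h1, h2.inv.eq rfl (sg_inv _ h1).symm⟩ }
  exact (mem_of_bits (K := K) (k_J s hs).1 (fun _ => ⟨by decide, H.xa⟩)
    (fun e => by simp [(k_J s hs).2] at e) (fun _ => ⟨by decide, H.xz⟩)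
    (fun _ => ⟨by decide, H.xa2⟩) (fun _ => ⟨by decide, H.xb2⟩) fun _ => ⟨by decide, H.xz2⟩).2

theorem exY2 : ∃ y ∈ CC ι x, Cj ι y b2 z2 ∧ Cj ι y z2 b2 := by
  obtain ⟨g, h1, h2, h3, h4⟩ : ∃ g, Cj ι g a1 a1 ∧ Cj ι g z1 z1 ∧ Cj ι g b2 z2 ∧ Cj ι g z2 b2 := by
    obtain ⟨g, -, h1, h2, h3, h4⟩ := H.exY
    exact ⟨_, SW.sw h1 (by decide) (by decide), SW.sw h2 (by decide) (by decide),
      SW.sw h3 (by decide) (by decide), SW.sw h4 (by decide) (by decide)⟩
  have xaz : Cj ι x (a1 * z1) z1 := (H.xa.mul H.xz).eq rfl (by decide)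
  have e : g * (x * (g⁻¹ * x⁻¹)) = g * x * g⁻¹ * x⁻¹ := by group
  have k1 := ((xaz.symm.trans (h1.mul h2).symm).trans xaz).trans h2
  have k2 := ((H.xz2.symm.trans h3.symm).trans H.xb2).trans h3
  have k3 := ((H.xz.symm.trans h2.symm).trans H.xz).trans h1
  have k4 := ((H.xb2.symm.trans h4.symm).trans H.xz2).trans h4
  obtain ⟨t, ht, e1⟩ := H.cen_Z k1 k2
  rw [← e1] at k3 k4
  have hE := cen_E t ht (H.fix_of k3) (H.fix_of k4)
  have e2 : g * x * g⁻¹ = ι t * x := by rw [e1]; group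
  have e3 : (ι t * x) ^ 3 = 1 := by rw [← e2, conj_pow, H.x3]; group
  have s1 : x * ι t * x⁻¹ = ι (sg t) := H.x_sg (e_K t hE)
  have s2 : x * ι (sg t) * x⁻¹ = ι (sg (sg t)) := H.x_sg (sg_mem t)
  have e4 : t * sg t * sg (sg t) = 1 := H.inj (by
    rw [map_mul, map_mul, ← s2, ← s1, map_one, ← e3, ← mul_one (_ * (_ * _ * x⁻¹)), ← H.x3]
    simp only [pow_succ, pow_zero]
    group)
  obtain ⟨a, ha, e5, e6⟩ := e_cob t hE e4
  have s3 : x * ι a * x⁻¹ = ι (sg a) := H.x_sg ha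
  refine ⟨ι a⁻¹ * g, mem_CC.mpr ⟨h1.trans (Cj.of' (e6 _ (by decide))),
    h2.trans (Cj.of' (e6 _ (by decide))), ?_⟩, h3.trans (Cj.of' (e6 _ (by decide))),
    h4.trans (Cj.of' (e6 _ (by decide)))⟩
  calc ι a⁻¹ * g * x = ι a⁻¹ * (g * x * g⁻¹) * g := by group
    _ = _ := by rw [e2, ← e5, map_mul, map_inv, map_inv, ← s3]; group

theorem th_mem (q : Perm (Fin 4)) : θ q ∈ CC ι x :=
  mem_CC.mpr ⟨H.ca q, ((H.ca q).cm (H.cb q)).eq (by decide) (by decide), H.cx q⟩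

theorem d8_mem (d : DihedralGroup 4) : (ι.comp d8) d ∈ CC ι x := by
  obtain ⟨h1, h2, h3, h4, -⟩ := d8_K d
  refine mem_CC.mpr ⟨Cj.of' ?_, Cj.of' ?_, (Cj.fix_iff.mp ((H.x_sg h1).eq rfl h2)).symm⟩
  · exact mul_inv_eq_iff_eq_mul.mpr h3
  · exact mul_inv_eq_iff_eq_mul.mpr h4

theorem cen_d8 (hg : g ∈ CC ι x) (h : Cj ι g z2 z2) : ∃ d, ι (d8f d) = g := by
  obtain ⟨h1, h2, h3⟩ := mem_CC.mp hg
  obtain ⟨t, ht, rfl⟩ := H.cen_Z h2 h
  have h4 := cen_a1 t ht (H.fix_of h1)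
  obtain ⟨d, rfl⟩ := d8_of t h4 (H.un (H.x_sg h4) (Cj.fix_iff.mpr h3.symm))
  exact ⟨d, rfl⟩

theorem cases : Nat.card (CC ι x) = 168 ∨ Nonempty (CC ι x ≃* alternatingGroup (Fin 6)) := by
  let f := (ι.comp d8).codRestrict (CC ι x) H.d8_mem
  have hf : H4.D8 f := ⟨fun a b e => d8_inj (H.inj (congrArg Subtype.val e)), fun g => by
    constructor
    · intro h
      obtain ⟨d, hd⟩ := H.cen_d8 g.2 (Cj.fix_iff.mpr (congrArg Subtype.val h))
      exact ⟨d, Subtype.ext hd⟩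
    · rintro ⟨d, rfl⟩
      refine Subtype.ext ?_
      change ι (d8f d) * ι z2 = ι z2 * ι (d8f d)
      rw [← map_mul, (d8_K d).2.2.2.2, map_mul]⟩
  obtain ⟨y, hy, -, h1⟩ := H.exY2
  have c1 : IsConj (f (r 2)) (f (sr 0)) := isConj_iff.mpr ⟨⟨θ px, H.th_mem _⟩, Subtype.ext (by
    change θ px * ι z2 * (θ px)⁻¹ = ι a2
    rw [← H.tz, ← H.ta', ← map_inv, ← map_mul, ← map_mul]
    exact congrArg θ (by decide))⟩
  have c2 : IsConj (f (r 2)) (f (sr 1)) := isConj_iff.mpr ⟨⟨y, hy⟩, Subtype.ext h1⟩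
  rcases hf.case_one_class c1 c2 with ⟨⟨e⟩⟩ | h
  · exact Or.inl ((Nat.card_congr e.toEquiv).trans H4.Low.card_SL3_two)
  · exact Or.inr h

theorem not_168 : Nat.card (CC ι x) ≠ 168 := fun hc => by
  classical
  obtain ⟨y, hy, h1, h2⟩ := H.exY2
  obtain ⟨y1, y2, y3⟩ := mem_CC.mp hy
  have b1a : Cj ι (ι b1) a1 (a1 * z1) := Cj.of' (by decide)
  have b1z : Cj ι (ι b1) z1 z1 := Cj.of' (by decide)
  have b1b : Cj ι (ι b1) b2 b2 := Cj.of' (by decide)
  have b1z2 : Cj ι (ι b1) z2 z2 := Cj.of' (by decide)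
  have hm : y * (ι b1 * (y⁻¹ * (ι b1)⁻¹)) ∈ CC ι x := mul_mem hy (mem_CC.mpr
    ⟨(((b1a.mul b1z).eq rfl (by decide : _ = a1)).symm.trans (y1.mul y2).symm).trans
      ((b1a.mul b1z).eq rfl (by decide)), (b1z.symm.trans y2.symm).trans b1z, by
      have e1 : x = ι b1 * x⁻¹ * (ι b1)⁻¹ := inv_injective (H.bx.symm.trans (by group))
      have e2 : y⁻¹ * x⁻¹ = x⁻¹ * y⁻¹ := by rw [← mul_inv_rev, ← y3, mul_inv_rev]
      calc _ = ι b1 * (y⁻¹ * x⁻¹) * (ι b1)⁻¹ := by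
            conv_lhs => rw [e1]
            group
        _ = _ := by
            rw [e2]
            conv_rhs => rw [e1]
            group⟩)
  obtain ⟨d, hd⟩ := H.cen_d8 hm (((b1z2.symm.trans h1.symm).trans b1b).trans h1)
  have k1 := ((b1b.symm.trans h2.symm).trans b1z2).trans h2
  rw [← hd] at k1
  have k2 : Cj ι y b1 (d8f d * b1) := by rw [Cj, map_mul, hd]; group
  obtain ⟨s0, hs0, k3⟩ : ∃ s0, (s0 = pb ∨ s0 = pb * pz) ∧ y * ι b1 * y⁻¹ = ι b1 * θ s0 := by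
    rcases d8_b d (H.fix_of k1) with k | k | k | k <;> rw [k] at k2
    · exact (H.nz H.bb_y (((k2.mul h1).eq rfl (by decide : _ = bz)).cn.trans H.bz_z)).elim
    · exact (H.nz H.b_y ((k2.eq rfl (by decide : _ = bz)).cn.trans H.bz_z)).elim
    · exact ⟨_, Or.inl rfl, by rw [H.tb, ← map_mul]; exact k2.eq rfl (by decide)⟩
    · exact ⟨_, Or.inr rfl, by
        rw [map_mul, H.tb, H.tz, ← map_mul, ← map_mul]; exact k2.eq rfl (by decide)⟩
  have cb : ∀ q, θ q * ι b1 = ι b1 * θ q := fun q => Cj.fix_iff.mp (H.cb q)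
  let S := Finset.univ.filter fun s : Perm (Fin 4) => ∃ k, k * s0 * k⁻¹ = s
  have hS : S.card = 6 ∧ 1 ∉ S ∧ swap 0 2 ∈ S ∧ swap 0 2 * s0 ≠ s0 * swap 0 2 := by
    rcases hs0 with rfl | rfl <;> decide +kernel
  have hin : ∀ s ∈ S, ∃ c ∈ CC ι x, c * ι b1 * c⁻¹ = ι b1 * θ s := fun s hs => by
    obtain ⟨k, rfl⟩ := (Finset.mem_filter.mp hs).2
    refine ⟨θ k * y, mul_mem (H.th_mem k) hy, ?_⟩
    calc _ = θ k * (y * ι b1 * y⁻¹) * (θ k)⁻¹ := by group
      _ = _ := by rw [k3, ← mul_assoc, cb, map_mul, map_mul, map_inv]; group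
  set w := y⁻¹ * (ι b1 * θ (swap 0 2)) * y with hw
  have w1 : w * ι b1 ≠ ι b1 * w := fun e => hS.2.2.2 (H.ti (by
    have e1 : y * (w * ι b1) * y⁻¹ = ι b1 * θ (swap 0 2) * (ι b1 * θ s0) := by
      rw [← k3, hw]; group
    have e2 : y * (ι b1 * w) * y⁻¹ = ι b1 * θ s0 * (ι b1 * θ (swap 0 2)) := by
      rw [← k3, hw]; group
    rw [e, e2, mul_assoc, mul_assoc, mul_right_inj, ← mul_assoc, ← mul_assoc, cb, cb, mul_assoc,
      mul_assoc, mul_right_inj] at e1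
    rw [map_mul, map_mul, e1]))
  have hF := orbit_le (C := CC ι x) (K := θ.range) (u := ι b1)
    (by rintro _ ⟨q, rfl⟩; exact H.th_mem q)
    (by rintro _ ⟨q, rfl⟩; exact mem_centralizer_singleton_iff.mpr (cb q))
    (insert w (insert (ι b1) (S.image fun s => ι b1 * θ s))) (by
      intro v hv
      simp only [Finset.mem_insert, Finset.mem_image] at hv
      rcases hv with rfl | rfl | ⟨s, hs, rfl⟩
      · obtain ⟨c, hc, e⟩ := hin _ hS.2.2.1
        exact ⟨y⁻¹ * c, mul_mem (inv_mem hy) hc, by rw [hw, ← e]; group⟩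
      · exact ⟨1, one_mem _, by group⟩
      · exact hin s hs)
  rw [Finset.card_insert_of_notMem, Finset.card_insert_of_notMem,
    Finset.card_image_of_injective _ fun a b e => H.ti (mul_left_cancel e), hS.1, hc,
    ← Nat.card_congr (MonoidHom.ofInjective H.ti).toEquiv, H3.Words.card_S4] at hF
  · omega
  · intro h
    obtain ⟨s, hs, e⟩ := Finset.mem_image.mp h
    exact hS.2.1 (H.ti ((mul_eq_left.mp e).trans θ.map_one.symm) ▸ hs)
  · intro h
    simp only [Finset.mem_insert, Finset.mem_image] at h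
    rcases h with h | ⟨s, -, h⟩
    · exact w1 (by rw [h])
    · exact w1 (by rw [← h, mul_assoc, cb])

theorem not_A6 (e : CC ι x ≃* alternatingGroup (Fin 6)) : False := by
  classical
  let p : alternatingGroup (Fin 6) := ⟨swap 0 1 * swap 0 2, Perm.mem_alternatingGroup.mpr (by decide)⟩
  let q : alternatingGroup (Fin 6) := ⟨swap 3 4 * swap 3 5, Perm.mem_alternatingGroup.mpr (by decide)⟩
  let ψ : alternatingGroup (Fin 6) →* G := (CC ι x).subtype.comp e.symm.toMonoidHom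
  have ψi : Function.Injective ψ := Subtype.val_injective.comp e.symm.injective
  have ψm : ∀ a, ψ a ∈ CC ι x := fun a => (e.symm a).2
  have ψx : ∀ a, ψ a * x = x * ψ a := fun a => (mem_CC.mp (ψm a)).2.2
  have pq : ψ p * ψ q = ψ q * ψ p := by
    rw [← map_mul, ← map_mul]; exact congrArg ψ (by decide)
  have hcm : ∀ a ∈ ({x, ψ p, ψ q} : Set G), ∀ b ∈ ({x, ψ p, ψ q} : Set G), a * b = b * a := by
    rintro a (rfl | rfl | rfl) b (rfl | rfl | rfl) <;> simp only [ψx, pq]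
  have hA : IsMulCommutative (closure ({x, ψ p, ψ q} : Set G)) := isMulCommutative_closure hcm
  have h1 := H.qt (closure {x, ψ p, ψ q}) (by
    have hC : ∀ a, ψ a ∈ 𝒩 (A1.map ι) := fun a => Mp.nm fun s hs => ⟨s, hs, by
      obtain ⟨h1, h2, -⟩ := mem_CC.mp (ψm a)
      rcases a1_cases s hs with rfl | rfl | rfl | rfl
      exacts [Cj.one _, h1, h2, h1.mul h2]⟩
    rw [closure_le]
    rintro a (rfl | rfl | rfl)
    · refine Mp.nm fun s hs => ?_
      rcases a1_cases s hs with rfl | rfl | rfl | rfl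
      exacts [⟨_, by decide, Cj.one _⟩, ⟨_, by decide, H.xa⟩, ⟨_, by decide, H.xz⟩,
        ⟨_, by decide, H.xa.mul H.xz⟩]
    · exact hC _
    · exact hC _) hA fun a ha => by
    induction ha using closure_induction with
    | mem a ha =>
      rcases ha with rfl | rfl | rfl
      · exact H.x3
      · rw [← map_pow, show p ^ 3 = 1 by decide, map_one]
      · rw [← map_pow, show q ^ 3 = 1 by decide, map_one]
    | one => exact one_pow 3
    | mul a b ha hb h1 h2 =>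
      rw [Commute.mul_pow (setLike_mul_comm ha hb), h1, h2, one_mul]
    | inv a _ h => rw [inv_pow, h, inv_one]
  let F : Finset G := insert x (Finset.univ.image fun i : Fin 3 × Fin 3 => ψ (p ^ i.1.1 * q ^ i.2.1))
  have h2 : F.card = 10 := by
    rw [Finset.card_insert_of_notMem, Finset.card_image_of_injective]
    · rfl
    · have : ∀ i j : Fin 3 × Fin 3, p ^ i.1.1 * q ^ i.2.1 = p ^ j.1.1 * q ^ j.2.1 → i = j := by
        decide +kernel
      exact fun i j e => this i j (ψi e)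
    · intro h
      obtain ⟨i, -, h⟩ := Finset.mem_image.mp h
      exact absurd (H.un H.xz (h ▸ (mem_CC.mp (ψm _)).2.1)) (by decide)
  have h3 : (F : Set G) ⊆ closure ({x, ψ p, ψ q} : Set G) := fun a ha => by
    simp only [F, Finset.coe_insert, Finset.coe_image, Set.mem_insert_iff, Set.mem_image] at ha
    rcases ha with rfl | ⟨i, -, rfl⟩
    · exact subset_closure (by simp)
    · rw [map_mul, map_pow, map_pow]
      exact mul_mem (pow_mem (subset_closure (by simp)) _) (pow_mem (subset_closure (by simp)) _)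
  have h4 := Set.ncard_le_ncard h3
  rw [Set.ncard_coe_finset, h2] at h4
  have h5 : (closure ({x, ψ p, ψ q} : Set G) : Set G).ncard = Nat.card (closure {x, ψ p, ψ q}) := rfl
  omega

theorem false : False := H.cases.elim H.not_168 fun ⟨e⟩ => H.not_A6 e

end EW

end Cfsg.H8.QW
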