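import Cfsg.Agent.H8.QW4
import Cfsg.Agent.H7.CharP
import Cfsg.Agent.H4.Dih8
import Cfsg.Prelude.Def_QuasithinSetup

/-!
No simple quasithin group of even characteristic has a subgroup `S₄ ≀ Z₂` of odd index.
-/

set_option autoImplicit false
set_option linter.unusedSectionVars false

namespace Cfsg.H8.QW

open Subgroup Cfsg.L0 Equiv
open scoped Pointwise

local notation "𝒩" X:max => Subgroup.normalizer (SetLike.coe X)
local notation "𝒞" X:max => Subgroup.centralizer (SetLike.coe X)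
local notation "𝒞₁" x:max => Subgroup.centralizer (singleton x : Set _)

def sw8 : Perm (Fin 4 ⊕ Fin 4) := Equiv.sumComm _ _

/-- The elements of the wreath product. -/
def wr (p q : Perm (Fin 4)) (e : Bool) : Perm (Fin 4 ⊕ Fin 4) :=
  Perm.sumCongr p q * cond e sw8 1

theorem wr_mul (p q p' q' : Perm (Fin 4)) (e : Bool) :
    wr p q false * wr p' q' e = wr (p * p') (q * q') e := by
  ext1 x; cases e <;> cases x <;> rfl

theorem wr_mul' (p q p' q' : Perm (Fin 4)) (e : Bool) :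
    wr p q true * wr p' q' e = wr (p * q') (q * p') (!e) := by
  ext1 x; cases e <;> cases x <;> rfl

theorem wr_inj {p q p' q' : Perm (Fin 4)} {e e' : Bool} (h : wr p q e = wr p' q' e') :
    p = p' ∧ q = q' ∧ e = e' := by
  have h1 := fun i => congrArg (· (Sum.inl i)) h
  have h2 := fun i => congrArg (· (Sum.inr i)) h
  cases e <;> cases e'
  · exact ⟨Equiv.ext fun i => Sum.inl.inj (h1 i), Equiv.ext fun i => Sum.inr.inj (h2 i), rfl⟩
  · exact absurd (h1 0) Sum.inl_ne_inr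
  · exact absurd (h1 0) Sum.inr_ne_inl
  · exact ⟨Equiv.ext fun i => Sum.inl.inj (h2 i), Equiv.ext fun i => Sum.inr.inj (h1 i), rfl⟩

theorem smul_l (p q : Perm (Fin 4)) :
    Perm.sumCongr p q • Set.range (Sum.inl : Fin 4 → Fin 4 ⊕ Fin 4) = Set.range Sum.inl := by
  ext x
  constructor
  · rintro ⟨_, ⟨i, rfl⟩, rfl⟩; exact ⟨p i, rfl⟩
  · rintro ⟨i, rfl⟩; exact ⟨_, ⟨p⁻¹ i, rfl⟩, by simp⟩

theorem smul_r (p q : Perm (Fin 4)) :
    Perm.sumCongr p q • Set.range (Sum.inr : Fin 4 → Fin 4 ⊕ Fin 4) = Set.range Sum.inr := by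
  ext x
  constructor
  · rintro ⟨_, ⟨i, rfl⟩, rfl⟩; exact ⟨q i, rfl⟩
  · rintro ⟨i, rfl⟩; exact ⟨_, ⟨q⁻¹ i, rfl⟩, by simp⟩

theorem sw_l : sw8 • Set.range (Sum.inl : Fin 4 → Fin 4 ⊕ Fin 4) = Set.range Sum.inr := by
  ext x
  constructor
  · rintro ⟨_, ⟨i, rfl⟩, rfl⟩; exact ⟨i, rfl⟩
  · rintro ⟨i, rfl⟩; exact ⟨_, ⟨i, rfl⟩, rfl⟩

theorem sw_r : sw8 • Set.range (Sum.inr : Fin 4 → Fin 4 ⊕ Fin 4) = Set.range Sum.inl := by
  ext x
  constructor
  · rintro ⟨_, ⟨i, rfl⟩, rfl⟩; exact ⟨i, rfl⟩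
  · rintro ⟨i, rfl⟩; exact ⟨_, ⟨i, rfl⟩, rfl⟩

theorem sw_mem : sw8 ∈ blockStabilizerS4wr2 := by
  rw [blockStabilizerS4wr2, MulAction.mem_stabilizer_iff, Set.smul_set_insert,
    Set.smul_set_singleton, sw_l, sw_r, Set.pair_comm]

theorem wr_mem (p q : Perm (Fin 4)) (e : Bool) : wr p q e ∈ blockStabilizerS4wr2 := by
  refine mul_mem ?_ ?_
  · rw [blockStabilizerS4wr2, MulAction.mem_stabilizer_iff, Set.smul_set_insert,
      Set.smul_set_singleton, smul_l, smul_r]
  · cases e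
    exacts [one_mem _, sw_mem]

theorem wr_surj {σ : Perm (Fin 4 ⊕ Fin 4)} (h : σ ∈ blockStabilizerS4wr2) :
    ∃ p q e, wr p q e = σ := by
  have key : ∀ σ : Perm (Fin 4 ⊕ Fin 4),
      σ • Set.range (Sum.inl : Fin 4 → Fin 4 ⊕ Fin 4) = Set.range Sum.inl →
      ∃ p q, Perm.sumCongr p q = σ := fun σ h => by
    obtain ⟨⟨p, q⟩, e⟩ := Perm.mem_sumCongrHom_range_of_perm_mapsTo_inl (σ := σ)
      fun x hx => h ▸ ⟨x, hx, rfl⟩
    exact ⟨p, q, e⟩
  rw [blockStabilizerS4wr2, MulAction.mem_stabilizer_iff, Set.smul_set_insert,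
    Set.smul_set_singleton, Set.pair_eq_pair_iff] at h
  rcases h with ⟨h, -⟩ | ⟨-, h⟩
  · obtain ⟨p, q, e⟩ := key σ h
    exact ⟨p, q, false, (mul_one _).trans e⟩
  · obtain ⟨p, q, e⟩ := key (σ * sw8) (by rw [mul_smul, sw_l, h])
    refine ⟨p, q, true, ?_⟩
    rw [wr, e, mul_assoc, show sw8 * cond true sw8 1 = 1 by decide, mul_one]

theorem card_W : Nat.card blockStabilizerS4wr2 = 1152 := by
  rw [← Nat.card_eq_of_bijective (fun a : Perm (Fin 4) × Perm (Fin 4) × Bool =>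
    (⟨wr a.1 a.2.1 a.2.2, wr_mem _ _ _⟩ : blockStabilizerS4wr2)) ⟨?_, ?_⟩, Nat.card_prod,
    Nat.card_prod, H3.Words.card_S4]
  · simp
  · rintro ⟨p, q, e⟩ ⟨p', q', e'⟩ h
    obtain ⟨rfl, rfl, rfl⟩ := wr_inj (congrArg Subtype.val h)
    rfl
  · rintro ⟨σ, h⟩
    obtain ⟨p, q, e, rfl⟩ := wr_surj h
    exact ⟨⟨p, q, e⟩, rfl⟩

def dl (i j k : Bool) : Perm (Fin 4) := cond i pa 1 * cond j pb 1 * cond k pz 1

theorem dl_mul : ∀ i j k i' j' k', dl (bx i i') (bx j j') (bx (bx k k') (j && i')) =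
    dl i j k * dl i' j' k' := by decide +kernel

theorem dl_inj : ∀ i j k i' j' k', dl i j k = dl i' j' k' → i = i' ∧ j = j' ∧ k = k' := by
  decide +kernel

/-- The Sylow 2-subgroup of the wreath product. -/
def io : TT →* blockStabilizerS4wr2 :=
  MonoidHom.mk' (fun s => ⟨wr (dl s.i s.j s.k) (dl s.l s.m s.n) s.e, wr_mem _ _ _⟩) fun s t => by
    obtain ⟨_, _, _, _, _, _, e⟩ := s
    refine Subtype.ext ?_
    cases e
    · exact ((wr_mul _ _ _ _ _).trans (by rw [← dl_mul, ← dl_mul]; rfl)).symm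
    · exact ((wr_mul' _ _ _ _ _).trans (by rw [← dl_mul, ← dl_mul]; rfl)).symm

theorem io_inj : Function.Injective io := fun s t h => by
  obtain ⟨h1, h2, h3⟩ := wr_inj (congrArg Subtype.val h)
  obtain ⟨e1, e2, e3⟩ := dl_inj _ _ _ _ _ _ h1
  obtain ⟨e4, e5, e6⟩ := dl_inj _ _ _ _ _ _ h2
  cases s; cases t
  simp_all

/-- The second factor. -/
def th : Perm (Fin 4) →* blockStabilizerS4wr2 :=
  MonoidHom.mk' (fun q => ⟨wr 1 q false, wr_mem _ _ _⟩) fun _ _ =>
    Subtype.ext ((wr_mul _ _ _ _ _).trans (by rw [mul_one])).symm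

theorem th_inj : Function.Injective th := fun _ _ h => (wr_inj (congrArg Subtype.val h)).2.1

def xx : blockStabilizerS4wr2 := ⟨wr px 1 false, wr_mem _ _ _⟩

theorem th_cm (p q : Perm (Fin 4)) :
    th q * ⟨wr p 1 false, wr_mem _ _ _⟩ = ⟨wr p 1 false, wr_mem _ _ _⟩ * th q :=
  Subtype.ext (((wr_mul _ _ _ _ _).trans (by simp)).trans (wr_mul _ _ _ _ _).symm)

variable {G : Type*} [Group G]

theorem cj_of (ψ : blockStabilizerS4wr2 →* G) {w : blockStabilizerS4wr2} {s t : TT}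
    (h : w * io s = io t * w) : Cj (ψ.comp io) (ψ w) s t := by
  rw [Cj, mul_inv_eq_iff_eq_mul, MonoidHom.comp_apply, MonoidHom.comp_apply, ← map_mul, h, map_mul]

theorem main [Finite G] (n2 : ∀ N : Subgroup G, N.index ≠ 2) (hq : TwoLocalPRankLE 3 2 G)
    (hc : IsOfEvenCharacteristic G) (T : Sylow 2 G) (ψ : blockStabilizerS4wr2 →* G)
    (hψ : Function.Injective ψ) (hT : (T : Subgroup G) ≤ ψ.range) : False := by
  classical
  set ι := ψ.comp io with hι
  have inj : Function.Injective ι := hψ.comp io_inj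
  have pg : IsPGroup 2 ι.range := by rw [MonoidHom.range_eq_map]; exact pg_map ⊤
  have syl : IsSyl 2 ι.range ⊤ := (isSyl_sylow T).of_card_ge pg le_top (by
    rw [← Nat.card_congr (MonoidHom.ofInjective inj).toEquiv, TT.card_TT]
    have h1 := card_dvd_of_le hT
    rw [← Nat.card_congr (MonoidHom.ofInjective hψ).toEquiv, card_W] at h1
    obtain ⟨k, hk⟩ := T.isPGroup'.exists_card_eq
    rw [hk] at h1 ⊢
    exact Nat.le_of_dvd (by norm_num) ((Nat.Coprime.pow_left k (by norm_num : Nat.Coprime 2 9)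
      ).dvd_of_dvd_mul_right (by norm_num [h1] : 2 ^ k ∣ 128 * 9)))
  have z2 : ι zz * ι zz = 1 := by rw [← map_mul]; exact map_one ι
  have z1' : ι zz ≠ 1 := fun e => absurd (inj (e.trans ι.map_one.symm)) (by decide)
  have hN : ∀ g, g ∈ 𝒩 (zpowers (ι zz)) ↔ Cj ι g zz zz := fun g => by
    constructor
    · intro h
      have h1 := conj_mem_of_mem_normalizer h (mem_zpowers _)
      rw [mem_zpowers_iff_mem_range_orderOf, orderOf_eq_prime (p := 2) (by rwa [pow_two]) z1'] at h1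
      simp only [Finset.mem_image, Finset.mem_range] at h1
      obtain ⟨i, hi, h1⟩ := h1
      interval_cases i
      · exact absurd (by simpa using h1.symm) z1'
      · exact (pow_one (ι zz) ▸ h1).symm
    · intro h
      rw [← cj_eq_iff, cj, MonoidHom.map_zpowers]
      exact congrArg zpowers h
  have hch := H7.isCharP_iff.mpr (hc (𝒩 (zpowers (ι zz)))
    ⟨_, isPGroup_zpowers (two_pow zz), by rwa [Ne, zpowers_eq_bot], rfl⟩ ⟨syl.toSylowTop, by
      rintro _ ⟨t, rfl⟩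
      exact (hN _).mpr (Cj.of' (by rw [t_zz, mul_inv_cancel_right]))⟩)
  have H : EW ι (pCoreOf 2 (𝒩 (zpowers (ι zz)))) (ψ xx) (ψ.comp th) :=
    { inj := inj
      syl := syl
      Rp := H7.isPGroup_pCoreOf 2 _
      Rn := fun g hg => H7.le_normalizer_pCoreOf 2 _ ((hN g).mpr hg)
      Rc := fun g hg h => hch ⟨(hN g).mpr hg, h⟩
      n2 := n2
      xz := cj_of ψ (by decide +kernel)
      xa := cj_of ψ (by decide +kernel)
      xa2 := cj_of ψ (by decide +kernel)
      xb2 := cj_of ψ (by decide +kernel)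
      x3 := by rw [← map_pow, show xx ^ 3 = 1 by decide +kernel, map_one]
      bx := by
        rw [hι, MonoidHom.comp_apply, ← map_inv ψ xx,
          show xx⁻¹ = io b1 * xx * (io b1)⁻¹ by decide +kernel, map_mul, map_mul, map_inv]
      ti := hψ.comp th_inj
      ta' := congrArg ψ (by decide +kernel)
      tb := congrArg ψ (by decide +kernel)
      ca := fun q => cj_of ψ (th_cm _ q)
      cb := fun q => cj_of ψ (th_cm _ q)
      cx := fun q => by
        rw [MonoidHom.comp_apply, ← map_mul, ← map_mul]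
        exact congrArg ψ (th_cm _ q)
      qt := fun A hA h1 h2 => by
        rw [← Nat.card_congr (subgroupOfEquivOfLe hA).toEquiv]
        refine hq _ ⟨_, pg_map A1, fun e => ?_, rfl⟩ _ inferInstance fun a ha =>
          Subtype.ext (h2 _ ha)
        have : ι QW.z1 ∈ A1.map ι := mem_map_of_mem _ (by decide)
        rw [e, mem_bot] at this
        exact absurd (inj (this.trans ι.map_one.symm)) (by decide) }
  exact H.false

end Cfsg.H8.QW
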