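import Cfsg.Agent.H8.Offend

/-!
Glauberman's theorem on weakly closed elements.
-/

set_option autoImplicit false
set_option linter.unusedSectionVars false

namespace Cfsg.H8

open Subgroup Cfsg.L0
open scoped commutatorElement

universe u

variable {G : Type u} [Group G] [Finite G] {p e : ℕ} [hp : Fact p.Prime]

theorem exists_not_mem_pow_mem {B M : Subgroup G} (hB : IsPGroup p B) (h : ¬ B ≤ M) :
    ∃ b ∈ B, b ∉ M ∧ b ^ p ∈ M := by
  classical
  obtain ⟨b, h1, h2⟩ := SetLike.not_le_iff_exists.1 h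
  have h3 : ∃ k, b ^ p ^ k ∈ M := (isPGroup_iff_forall.1 hB b h1).imp fun k e => by rw [e]; exact M.one_mem
  have h4 : Nat.find h3 ≠ 0 := fun e => h2 (by simpa [e] using Nat.find_spec h3)
  obtain ⟨i, hi⟩ := Nat.exists_eq_succ_of_ne_zero h4
  refine ⟨_, pow_mem h1 _, Nat.find_min h3 (by omega : i < Nat.find h3), ?_⟩
  have := Nat.find_spec h3
  rwa [hi, pow_succ, pow_mul] at this

theorem fix_of_local {P H : Subgroup G} {x : G} (hP : IsSyl p P H) (c : ℕ)
    (h : ∀ U, U ≤ P → x ∈ U → c ≤ Nat.card U → H ⊓ normalizer (U : Set G) ≤ centralizer ({x} : Set G)) :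
    ∀ U, U ≤ P → ∀ g ∈ H, cj g U ≤ P → c ≤ Nat.card U → x ∈ U → g * x * g⁻¹ = x := by
  refine alperin_core hP (fun U g => c ≤ Nat.card U → x ∈ U → g * x * g⁻¹ = x)
    (fun U g k _ _ _ _ _ h1 h2 h3 h4 => ?_) (fun U V g h1 _ _ _ h2 h3 h4 => h2 (h3.trans (card_le_of_le h1)) (h1 h4))
    fun U h1 _ _ g h2 h3 h4 h5 => mem_cent_iff.1 (h U h1 h5 h4 ⟨h2, h3⟩)
  have h5 := h1 h3 h4
  rw [mul_inv_rev, ← mul_assoc, mul_assoc k, mul_assoc k, h5]
  exact h2 (by rwa [card_cj]) (h5 ▸ conj_mem_cj h4)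

/-- The local case: `x` lies in `O_p(H)` and all proper overgroups of `P` fix `x`. -/
theorem le_cent_of_local {P H : Subgroup G} {x : G} (hP : IsSyl p P H) (hxQ : x ∈ pCoreOf p H)
    (hN : H ⊓ normalizer (JT 0 P : Set G) ≤ centralizer ({x} : Set G))
    (h : p ≠ 2 ∨ (∃ z ∈ P ⊓ centralizer (P : Set G), z ^ p = x) ∨ ¬ Involves (Equiv.Perm (Fin 4)) H)
    (hmin : ∀ K, P ≤ K → K ≤ H → K ≠ H → K ≤ centralizer ({x} : Set G)) :
    H ≤ centralizer ({x} : Set G) := by
  by_contra hH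
  have hPx : P ≤ centralizer ({x} : Set G) :=
    (le_inf hP.le (le_normalizer.trans (normalizer_le_normalizer_JT 0 P))).trans hN
  set Q := pCoreOf p H with hQ
  have hHQ : H ≤ normalizer (Q : Set G) := H7.le_normalizer_pCoreOf p H
  have hQP : Q ≤ P := hP.le_of_normalizes (H7.isPGroup_pCoreOf p H) (H7.pCoreOf_le p H) (hP.le.trans hHQ)
  set V := ncl H (zpowers x) with hV
  have hxV : x ∈ V := le_ncl _ _ (mem_zpowers x)
  have hHV : H ≤ normalizer (V : Set G) := le_normalizer_ncl _ _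
  have hVx : centralizer (V : Set G) ≤ centralizer ({x} : Set G) :=
    le_cent_iff.2 (le_centralizer_iff.1 le_rfl hxV)
  have hHC : H ≤ normalizer ((H ⊓ centralizer (V : Set G) : Subgroup G) : Set G) :=
    le_normalizer_inf le_normalizer (le_normalizer_centralizer hHV)
  have hS := hP.inf inf_le_left (hP.le.trans hHC)
  set R := P ⊓ (H ⊓ centralizer (V : Set G)) with hR
  have h1 : ¬ H ⊓ normalizer (R : Set G) ≤ centralizer ({x} : Set G) := fun h1 => hH fun g hg => by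
    obtain ⟨k, hk, n, hn, rfl⟩ := hS.frattini (hHC hg)
    exact mul_mem (hVx hk.2) (h1 ⟨(H.mul_mem_cancel_left hk.1).1 hg, hn⟩)
  have h2 : R ≤ Q := by
    refine H7.le_pCoreOf hS.isPGroup (inf_le_left.trans hP.le) ?_
    by_contra h2
    exact h1 (hmin _ (le_inf hP.le (le_normalizer_inf le_normalizer (hP.le.trans hHC))) inf_le_left
      fun e => h2 (e.ge.trans inf_le_right))
  obtain ⟨A, hA, h3⟩ : ∃ A, MaxAb 0 P A ∧ ¬ A ≤ R := by
    by_contra! h3
    refine h1 ((inf_le_inf_left _ ?_).trans hN)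
    rw [← JT_eq_of_le (JT_le_iff.2 h3) inf_le_left]
    exact normalizer_le_normalizer_JT 0 R
  set Z := ncl H (P ⊓ centralizer (P : Set G)) with hZ
  have hVQ : V ≤ Q := ncl_le (zpowers_le.2 hxQ) hHQ
  have hZQ : Z ≤ Q := ncl_le ((le_inf inf_le_left (le_inf (inf_le_left.trans hP.le)
    (inf_le_right.trans (H7.centralizer_anti (hVQ.trans hQP))))).trans h2) hHQ
  have hQZ : Q ≤ centralizer (Z : Set G) := le_centralizer_iff.1 (ncl_le (inf_le_right.trans
    (H7.centralizer_anti hQP)) (le_normalizer_centralizer hHQ))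
  have hZZ := hZQ.trans hQZ
  have hHZ : H ≤ normalizer (Z : Set G) := le_normalizer_ncl _ _
  have hVZ : V ≤ Z := ncl_mono le_rfl (zpowers_le.2 ⟨hQP hxQ, le_cent_iff.1 hPx⟩)
  have hAZ := (hA.le.trans hP.le).trans hHZ
  have hAA : ⁅A, A⁆ ≤ centralizer (Z : Set G) := H7.commutator_le_of_le_centralizer hA.comm
  have hb := hA.best (hZQ.trans hQP) hZZ
  have h4 := H9.timmesfeld_best hZZ hAZ hAA hb le_rfl
  have h5 := H9.timmesfeld_not_le (p := p) hZZ (hP.isPGroup.to_le (hZQ.trans hQP)) hAZ hAA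
    (by rw [H7.pResidualOf_eq_bot_iff.2 (hP.isPGroup.to_le hA.le)]; exact bot_le) hb
    fun e => h3 (le_inf hA.le (le_inf (hA.le.trans hP.le) (e.trans (H7.centralizer_anti hVZ))))
  set D := A ⊓ centralizer ((⁅Z, A⁆ : Subgroup G) : Set G) with hD
  have hDP : D ≤ P := inf_le_left.trans hA.le
  have hq : ⁅Z, D⁆ ≤ centralizer (D : Set G) :=
    (commutator_mono le_rfl inf_le_left).trans (le_centralizer_iff.1 inf_le_right)
  have h6 : ¬ D ≤ centralizer (V : Set G) := fun e =>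
    h5 ((le_inf hDP (le_inf (hDP.trans hP.le) e)).trans (h2.trans hQZ))
  have h7 := ff_fixed hP hPx (hVQ.trans hQP) hmin hDP ((commutator_mono hVZ le_rfl).trans hq) h6
    (off_of_best (h4.mono hZZ hVZ))
  obtain ⟨z, hz, rfl⟩ := (h.resolve_left fun e => e h7.1).resolve_right fun e => e h7.2
  obtain ⟨g, hg, h8⟩ : ∃ g ∈ H, ¬ cj g D ≤ H ⊓ centralizer ({z ^ p} : Set G) := by
    by_contra! h8
    exact h6 ((le_ncl H D).trans (le_centralizer_iff.1 (ncl_le (zpowers_le.2 (le_cent_iff.1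
      ((ncl_le_iff.2 h8).trans inf_le_right))) (le_normalizer_centralizer (le_normalizer_ncl _ _)))))
  obtain ⟨m, hm, h9⟩ := (hP.mono (le_inf hP.le hPx) inf_le_left).exists_cj_le
    (isPGroup_cj (hP.isPGroup.to_le hDP) g).to_inf_left inf_le_right
  rw [cj_inf, cj_eq_of_mem hm, ← cj_mul] at h9
  rw [← cj_le_cj_iff m, cj_eq_of_mem hm, ← cj_mul] at h8
  have hmg := H.mul_mem hm.1 hg
  obtain ⟨b, b1, b2, b3⟩ := exists_not_mem_pow_mem (isPGroup_cj (hP.isPGroup.to_le hDP) _) h8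
  have hbH : b ∈ H := cj_le_of_le (hDP.trans hP.le) (le_normalizer hmg) b1
  have hzZ : z ∈ Z := le_ncl _ _ hz
  replace hq := cj_mono (m * g) hq
  rw [cj_commutator, cj_centralizer, cj_eq_iff.2 (hHZ hmg)] at hq
  refine b2 ⟨hbH, mem_centralizer_singleton_iff.2 (commutatorElement_eq_one_iff_mul_comm.1 ?_).symm⟩
  rw [commutatorElement_pow_left (hZZ hzZ _ (commutatorElement_mem_of_normalizer' (hHZ hbH) hzZ)),
    ← commutatorElement_pow_right (hq (commutator_mem_commutator hzZ b1) b b1).symm,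
    commutatorElement_eq_one_iff_mul_comm]
  exact (hz.2 _ (h9 ⟨pow_mem b1 p, b3⟩)).symm

theorem weakly_closed {P H : Subgroup G} {x : G} (hP : IsSyl p P H) (hxP : x ∈ P)
    (hN : H ⊓ normalizer (JT 0 P : Set G) ≤ centralizer ({x} : Set G))
    (h : p ≠ 2 ∨ (∃ z ∈ P ⊓ centralizer (P : Set G), z ^ p = x) ∨ ¬ Involves (Equiv.Perm (Fin 4)) H) :
    ∀ g ∈ H, g * x * g⁻¹ ∈ P → g * x * g⁻¹ = x := by
  induction hc : Nat.card H using Nat.strong_induction_on generalizing P H with | _ n IH => ?_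
  have hPx : P ≤ centralizer ({x} : Set G) :=
    (le_inf hP.le (le_normalizer.trans (normalizer_le_normalizer_JT 0 P))).trans hN
  by_cases hxQ : x ∈ pCoreOf p H
  · have hHQ := H7.le_normalizer_pCoreOf p H
    refine fun g hg _ => mem_cent_iff.1 (le_cent_of_local hP hxQ hN h (fun K h1 h2 h3 k hk => ?_) hg)
    refine mem_cent_iff.2 (IH _ (hc ▸ card_lt_of_lt (lt_of_le_of_ne h2 h3)) (hP.mono h1 h2) hxP
      ((inf_le_inf_right _ h2).trans hN) (h.imp_right (Or.imp_right fun h4 h5 => h4 (involves_mono h5 h2)))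
      rfl k hk ?_)
    exact hP.le_of_normalizes (H7.isPGroup_pCoreOf p H) (H7.pCoreOf_le p H) (hP.le.trans hHQ)
      (conj_mem_of_mem_normalizer (hHQ (h2 hk)) hxQ)
  suffices key : ∀ (m : ℕ) (W : Subgroup G), Nat.card G - Nat.card ↥(P ⊓ normalizer (W : Set G)) = m →
      W ≤ P → x ∈ W → H ⊓ normalizer (W : Set G) ≤ centralizer ({x} : Set G) from fun g hg h1 =>
    fix_of_local hP 0 (fun U h2 h3 _ => key _ U rfl h2 h3) (zpowers x) (zpowers_le.2 hxP) g hg
      (by rw [cj_zpowers]; exact zpowers_le.2 h1) (Nat.zero_le _) (mem_zpowers x)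
  intro m
  induction m using Nat.strong_induction_on with | _ m IH2 => ?_
  intro W hm hW hxW
  have IH3 : ∀ U T, U ≤ P → x ∈ U → T < P → Nat.card ↥(P ⊓ normalizer (W : Set G)) ≤ Nat.card T →
      normalizer (T : Set G) ≤ normalizer (U : Set G) →
      H ⊓ normalizer (U : Set G) ≤ centralizer ({x} : Set G) := fun U T h1 h2 h3 h4 h5 => by
    have h6 := card_lt_of_lt ((lt_inf_normalizer hP.isPGroup h3).trans_le (inf_le_inf_left _ h5))
    have h7 := card_le_card_group (P ⊓ normalizer (U : Set G))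
    exact IH2 _ (by omega) U rfl h1 h2
  obtain ⟨k, hk, h1, h2⟩ := exists_fullyNormalized hP hP.isPGroup.to_inf_left (inf_le_left.trans hP.le)
    (inf_le_right : P ⊓ normalizer (W : Set G) ≤ _)
  have hWT : W ≤ P ⊓ normalizer (W : Set G) := le_inf hW le_normalizer
  have h3 := fix_of_local hP _ (fun U h3 h4 h5 => by
    rcases h3.eq_or_lt with rfl | h3
    · exact (inf_le_inf_left _ (normalizer_le_normalizer_JT 0 _)).trans hN
    · exact IH3 U U h3.le h4 h3 h5 le_rfl) _ inf_le_left k hk h1 le_rfl (hWT hxW)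
  have h4 : cj k W ≤ P := (cj_mono k hWT).trans h1
  have h5 : x ∈ cj k W := h3 ▸ conj_mem_cj hxW
  rw [← cj_le_cj_iff k, cj_inf, cj_eq_of_mem hk, cj_normalizer, cj_centralizer_singleton, h3]
  have h6 : Nat.card ↥(P ⊓ normalizer (W : Set G)) ≤ Nat.card ↥(P ⊓ normalizer (cj k W : Set G)) := by
    rw [← card_cj k]
    refine card_le_of_le (le_inf h1 ?_)
    rw [← cj_normalizer]; exact cj_mono k inf_le_right
  generalize cj k W = W' at *
  have h7 : W' ≤ P ⊓ normalizer (W' : Set G) := le_inf h4 le_normalizer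
  refine fun g hg => mem_cent_iff.2 (IH _ (hc ▸ card_lt_of_lt (inf_lt_left.2 fun e => hxQ
    (H7.le_pCoreOf (hP.isPGroup.to_le h4) (h4.trans hP.le) e h5))) h2 (h7 h5) ?_ (h.imp_right (Or.imp ?_
      fun h8 h9 => h8 (involves_mono h9 inf_le_left))) rfl g hg (h7 (conj_mem_of_mem_normalizer hg.2 h5)))
  · refine (inf_le_inf_right _ inf_le_left).trans ?_
    rcases (inf_le_left : P ⊓ normalizer (W' : Set G) ≤ P).eq_or_lt with e | h8
    · rwa [e]
    · exact IH3 _ _ ((JT_le _ _).trans inf_le_left) (ZJ_le_JT _ _ (mem_ZJ_of (h7 h5) (le_cent_iff.1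
        (((JT_le _ _).trans inf_le_left).trans hPx)) (pow_zero _))) h8 h6 (normalizer_le_normalizer_JT 0 _)
  · rintro ⟨z, h8, h9⟩
    exact ⟨z, ⟨⟨h8.1, centralizer_le_normalizer _ (H7.centralizer_anti h4 h8.2)⟩,
      H7.centralizer_anti inf_le_left h8.2⟩, h9⟩

theorem ctrl_of_sc_abelian {P A : Subgroup G} (hP : IsSyl p P ⊤) (hA : A ≤ centralizer (A : Set G))
    (hsc : IsStronglyClosed A P) : Ctrl (normalizer (A : Set G)) ⊤ P := by
  refine controls_of_radical hP fun U hU _ hcr g _ hg => ⟨g, ?_, fun _ _ => rfl⟩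
  have hAU : A ≤ U := hcr.le_of_abelian hP.isPGroup le_top hU hsc.1 hA (hU.trans (sc_le_normalizer hsc))
    (inf_le_right.trans (sc_normalizer_le hsc hU))
  have := sc_normalizer_le hsc hU hg
  rwa [inf_eq_right.2 hAU] at this

end Cfsg.H8
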